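import Mathlib

/-!
# Rank three recognition of the Rudvalis group: permutation group preliminaries
-/

set_option autoImplicit false
set_option linter.unusedSectionVars false

namespace Cfsg.Agent.Lib.RuRec

open Equiv
open scoped Classical

section Adj

variable {Ω : Type*}

/-- The orbital relation of `(a, b)` under `G`. -/
def Adj (G : Subgroup (Perm Ω)) (a b x y : Ω) : Prop := ∃ g ∈ G, g a = x ∧ g b = y

/-- The orbit of `x` under the stabiliser of `a`. -/
def Orb (G : Subgroup (Perm Ω)) (a x : Ω) : Set Ω := {y | ∃ g ∈ G, g a = a ∧ g x = y}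

variable {G : Subgroup (Perm Ω)} {a b : Ω}

theorem Adj.smul {x y : Ω} {g : Perm Ω} (hg : g ∈ G) (h : Adj G a b x y) :
    Adj G a b (g x) (g y) := by
  obtain ⟨k, hk, rfl, rfl⟩ := h
  exact ⟨g * k, G.mul_mem hg hk, rfl, rfl⟩

theorem adj_smul_iff {x y : Ω} {g : Perm Ω} (hg : g ∈ G) :
    Adj G a b (g x) (g y) ↔ Adj G a b x y := by
  constructor
  · intro h
    have := Adj.smul (G.inv_mem hg) h
    simpa using this
  · exact Adj.smul hg

theorem Adj.symm_of_swap {t : Perm Ω} (ht : t ∈ G) (hab : t a = b) (hba : t b = a) {x y : Ω}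
    (h : Adj G a b x y) : Adj G a b y x := by
  obtain ⟨k, hk, rfl, rfl⟩ := h
  exact ⟨k * t, G.mul_mem hk ht, by simp [hab], by simp [hba]⟩

theorem adj_left_iff {y : Ω} : Adj G a b a y ↔ y ∈ Orb G a b := Iff.rfl

theorem mem_Orb_self (x : Ω) : x ∈ Orb G a x := ⟨1, G.one_mem, rfl, rfl⟩

theorem Orb_eq_of_mem {x y : Ω} (h : y ∈ Orb G a x) : Orb G a y = Orb G a x := by
  obtain ⟨g, hg, hga, rfl⟩ := h
  ext z
  constructor
  · rintro ⟨k, hk, hka, rfl⟩
    exact ⟨k * g, G.mul_mem hk hg, by simp [hga, hka], rfl⟩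
  · rintro ⟨k, hk, hka, rfl⟩
    refine ⟨k * g⁻¹, G.mul_mem hk (G.inv_mem hg), ?_, by simp⟩
    have : g⁻¹ a = a := by
      rw [Perm.inv_eq_iff_eq]
      exact hga.symm
    rw [Perm.mul_apply, this, hka]

theorem Orb_smul {g : Perm Ω} (hg : g ∈ G) (hga : g a = a) (x : Ω) : Orb G a (g x) = Orb G a x :=
  Orb_eq_of_mem ⟨g, hg, hga, rfl⟩

end Adj

section Count

variable {Ω : Type*} [Fintype Ω]
variable {G : Subgroup (Perm Ω)} {a b : Ω}

/-- The neighbours of `x`. -/
noncomputable def nbrs (G : Subgroup (Perm Ω)) (a b x : Ω) : Finset Ω :=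
  Finset.univ.filter (fun y => Adj G a b x y)

/-- The in-neighbours of `y`. -/
noncomputable def inbrs (G : Subgroup (Perm Ω)) (a b y : Ω) : Finset Ω :=
  Finset.univ.filter (fun x => Adj G a b x y)

theorem card_nbrs_smul {g : Perm Ω} (hg : g ∈ G) (x : Ω) :
    (nbrs G a b (g x)).card = (nbrs G a b x).card := by
  refine Finset.card_bij' (fun y _ => g⁻¹ y) (fun y _ => g y) ?_ ?_ ?_ ?_
  · intro y hy
    simp only [nbrs, Finset.mem_filter, Finset.mem_univ, true_and] at hy ⊢
    rw [← adj_smul_iff hg]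
    simpa using hy
  · intro y hy
    simp only [nbrs, Finset.mem_filter, Finset.mem_univ, true_and] at hy ⊢
    exact (adj_smul_iff hg).2 hy
  · intro y _; simp
  · intro y _; simp

theorem card_inbrs_smul {g : Perm Ω} (hg : g ∈ G) (x : Ω) :
    (inbrs G a b (g x)).card = (inbrs G a b x).card := by
  refine Finset.card_bij' (fun y _ => g⁻¹ y) (fun y _ => g y) ?_ ?_ ?_ ?_
  · intro y hy
    simp only [inbrs, Finset.mem_filter, Finset.mem_univ, true_and] at hy ⊢
    rw [← adj_smul_iff hg]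
    simpa using hy
  · intro y hy
    simp only [inbrs, Finset.mem_filter, Finset.mem_univ, true_and] at hy ⊢
    exact (adj_smul_iff hg).2 hy
  · intro y _; simp
  · intro y _; simp

theorem sum_nbrs_eq_sum_inbrs :
    ∑ x : Ω, (nbrs G a b x).card = ∑ y : Ω, (inbrs G a b y).card := by
  simp only [nbrs, inbrs]
  exact Finset.sum_card_bipartiteAbove_eq_sum_card_bipartiteBelow (fun x y => Adj G a b x y)

theorem coe_nbrs_a : (nbrs G a b a : Set Ω) = Orb G a b := by
  ext y
  simp only [nbrs, Finset.coe_filter, Finset.mem_univ, true_and]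
  rfl

theorem card_nbrs_a : (nbrs G a b a).card = (Orb G a b).ncard := by
  rw [← coe_nbrs_a, Set.ncard_coe_finset]

/-- The in-neighbours of `a` form the orbit of `g⁻¹ a`, where `g a = b`. -/
theorem coe_inbrs_a {g : Perm Ω} (hg : g ∈ G) (hga : g a = b) :
    (inbrs G a b a : Set Ω) = Orb G a (g⁻¹ a) := by
  ext w
  simp only [inbrs, Finset.coe_filter, Finset.mem_univ, true_and]
  show Adj G a b w a ↔ w ∈ Orb G a (g⁻¹ a)
  constructor
  · rintro ⟨k, hk, rfl, hkb⟩
    refine ⟨k * g, G.mul_mem hk hg, by simp [hga, hkb], by simp⟩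
  · rintro ⟨k, hk, hka, rfl⟩
    refine ⟨k * g⁻¹, G.mul_mem hk (G.inv_mem hg), rfl, ?_⟩
    have : g⁻¹ b = a := by
      rw [Perm.inv_eq_iff_eq]
      exact hga.symm
    rw [Perm.mul_apply, this, hka]

theorem card_nbrs_of_trans (htr : ∀ x, ∃ g ∈ G, g a = x) (x : Ω) :
    (nbrs G a b x).card = (Orb G a b).ncard := by
  obtain ⟨g, hg, rfl⟩ := htr x
  rw [card_nbrs_smul hg, card_nbrs_a]

/-- The in- and out-degrees agree, for a transitive group. -/
theorem card_inbrs_eq (htr : ∀ x, ∃ g ∈ G, g a = x) :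
    (inbrs G a b a).card = (nbrs G a b a).card := by
  have h1 : ∀ x, (inbrs G a b x).card = (inbrs G a b a).card := by
    intro x
    obtain ⟨g, hg, rfl⟩ := htr x
    exact card_inbrs_smul hg a
  have h2 : ∀ x, (nbrs G a b x).card = (nbrs G a b a).card := by
    intro x
    obtain ⟨g, hg, rfl⟩ := htr x
    exact card_nbrs_smul hg a
  have h3 := sum_nbrs_eq_sum_inbrs (G := G) (a := a) (b := b)
  rw [Finset.sum_congr rfl (fun x _ => h2 x), Finset.sum_congr rfl (fun x _ => h1 x)] at h3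
  simp only [Finset.sum_const, Finset.card_univ, smul_eq_mul] at h3
  have h4 : 0 < Fintype.card Ω := Fintype.card_pos_iff.2 ⟨a⟩
  exact (Nat.eq_of_mul_eq_mul_left h4 h3).symm

end Count

section Part

variable {Ω : Type*} [Fintype Ω]
variable {G : Subgroup (Perm Ω)} {a b c : Ω}

/-- The data of the three orbits. -/
structure Orbits (G : Subgroup (Perm Ω)) (a b c : Ω) : Prop where
  htr : ∀ x, ∃ g ∈ G, g a = x
  hb : (Orb G a b).ncard = 1755
  hc : (Orb G a c).ncard = 2304
  hcard : Fintype.card Ω = 4060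

theorem not_mem_of_card {x : Ω} (h : 1 < (Orb G a x).ncard) : a ∉ Orb G a x := by
  intro hmem
  rw [← Orb_eq_of_mem hmem] at h
  have : Orb G a a = {a} := by
    ext y
    constructor
    · rintro ⟨g, _, h1, rfl⟩
      simp [h1]
    · rintro rfl
      exact mem_Orb_self _
  rw [this, Set.ncard_singleton] at h
  omega

namespace Orbits

variable (O : Orbits G a b c)
include O

theorem a_not_b : a ∉ Orb G a b := not_mem_of_card (by rw [O.hb]; norm_num)

theorem a_not_c : a ∉ Orb G a c := not_mem_of_card (by rw [O.hc]; norm_num)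

theorem disj {x : Ω} (hb : x ∈ Orb G a b) (hc : x ∈ Orb G a c) : False := by
  have h1 := Orb_eq_of_mem hb
  have h2 := Orb_eq_of_mem hc
  have h3 : (Orb G a b).ncard = (Orb G a c).ncard := by rw [← h1, h2]
  rw [O.hb, O.hc] at h3
  norm_num at h3

/-- The three orbits cover. -/
theorem cover (x : Ω) : x = a ∨ x ∈ Orb G a b ∨ x ∈ Orb G a c := by
  by_contra hx
  push Not at hx
  obtain ⟨h1, h2, h3⟩ := hx
  have hfin : ∀ s : Set Ω, s.Finite := fun s => Set.toFinite s
  have hd1 : Disjoint (Orb G a b) (Orb G a c) := by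
    rw [Set.disjoint_left]
    exact fun y hb hc => O.disj hb hc
  have hu : (Orb G a b ∪ Orb G a c).ncard = 4059 := by
    rw [Set.ncard_union_eq hd1 (hfin _) (hfin _), O.hb, O.hc]
  have hd2 : Disjoint ({a} : Set Ω) (Orb G a b ∪ Orb G a c) := by
    rw [Set.disjoint_singleton_left]
    rintro (h | h)
    · exact O.a_not_b h
    · exact O.a_not_c h
  have hu2 : (({a} : Set Ω) ∪ (Orb G a b ∪ Orb G a c)).ncard = 4060 := by
    rw [Set.ncard_union_eq hd2 (hfin _) (hfin _), hu, Set.ncard_singleton]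
  have hall : ({a} : Set Ω) ∪ (Orb G a b ∪ Orb G a c) = Set.univ := by
    apply Set.eq_of_subset_of_ncard_le (Set.subset_univ _)
    rw [hu2, Set.ncard_univ, Nat.card_eq_fintype_card, O.hcard]
  have hx : x ∈ ({a} : Set Ω) ∪ (Orb G a b ∪ Orb G a c) := by rw [hall]; trivial
  rcases hx with h | h | h
  · exact h1 h
  · exact h2 h
  · exact h3 h

theorem exists_swap : ∃ t ∈ G, t a = b ∧ t b = a := by
  obtain ⟨g, hg, hga⟩ := O.htr b
  have h1 := card_inbrs_eq (G := G) (a := a) (b := b) O.htr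
  have hne : g⁻¹ a ≠ a := by
    intro h
    have : g a = a := by
      have h2 := congrArg g h
      simpa using h2.symm
    rw [this] at hga
    exact O.a_not_b (hga ▸ mem_Orb_self _)
  have h2 : (Orb G a (g⁻¹ a)).ncard = 1755 := by
    rw [← coe_inbrs_a hg hga, Set.ncard_coe_finset, h1, card_nbrs_a, O.hb]
  have h3 : g⁻¹ a ∈ Orb G a b := by
    rcases O.cover (g⁻¹ a) with h | h | h
    · exact absurd h hne
    · exact h
    · rw [Orb_eq_of_mem h, O.hc] at h2
      norm_num at h2
  obtain ⟨h, hh, hha, hhb⟩ := h3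
  refine ⟨g * h, G.mul_mem hg hh, ?_, ?_⟩
  · simp [hha, hga]
  · simp [hhb]

end Orbits

end Part

end Cfsg.Agent.Lib.RuRec
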