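import Cfsg.Agent.Lib.RuRec.Mdl
import Cfsg.Agent.Lib.RuRec.Tb
import Cfsg.Agent.Lib.RuRec.TbR
import Cfsg.Agent.Lib.RuRec.TbS
import Cfsg.Agent.Lib.CosetCert.D.Ru.Final

/-!
# Rank three recognition of the Rudvalis group: the concrete model
-/

set_option autoImplicit false
set_option linter.unusedVariables false
set_option maxRecDepth 100000

namespace Cfsg.Agent.Lib.RuRec.Cc

open Equiv Cfsg.Agent.Lib.CosetCert Cfsg.Agent.Lib.CosetCert.D.Ru.Tbl Cfsg.Agent.Lib.TC.Core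
  Cfsg.Agent.Lib.TC.Enc Cfsg.Agent.Lib.RuRec.Dfs Cfsg.Agent.Lib.RuRec.Tb

open Cfsg.Agent.Lib.CosetCert.D.Ru in
/-- The points. -/
abbrev X : Type := Fin 4060

/-- The full mask. -/
noncomputable def rM : ℕ := Nat.sub (Nat.pow 2 4060) 1

/-- A row. -/
noncomputable def rowAt (i : ℕ) : ℕ :=
  cell 4060 rM (rowT.get (Nat.shiftRight i 4)) (Nat.land i 15)

/-- The table of `c`. -/
noncomputable def cc (x : ℕ) : ℕ := cell 12 4095 cLit x

/-- The table of `t0`. -/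
noncomputable def t0T (x : ℕ) : ℕ := cell 12 4095 t0Lit x

/-- The row of a point. -/
noncomputable def R (y : ℕ) : ℕ := rowAt (rix y)

/-- The assignments. -/
noncomputable def T (e x : ℕ) : ℕ := cell 12 4095 (solT.get e) (kidx x)

/-- A number as a point. -/
def toX (n : ℕ) : X := Fin.ofNat 4060 n

theorem toX_val {n : ℕ} (h : n < 4060) : (toX n).val = n := by
  simp [toX, Fin.ofNat, Nat.mod_eq_of_lt h]

theorem toX_of_val (x : X) : toX x.val = x := Fin.ext (toX_val x.2)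

/-- The point `a0`. -/
def a0 : X := D.Ru.Lv0.Ok.p

/-- The point `b0`. -/
def b0 : X := D.Ru.Lv1.Ok.p

/-- The point `d0`. -/
def d0 : X := ⟨2, by decide⟩

/-- The element swapping `a0` and `b0`. -/
noncomputable def t0 : Perm X := ev L2.val wK * ev L0.val wG * ev L1.val wH

/-- The element of order `5`. -/
noncomputable def c : Perm X := ev L2.val wC

/-- The element normalising `c`. -/
noncomputable def d : Perm X := ev L2.val wD

/-- The point `c0`. -/
noncomputable def c0 : X := t0 d0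

/-- The orbital graph. -/
def Gam (x y : X) : Prop := ∃ r ∈ L0.G, r a0 = x ∧ r b0 = y

/-- The near points. -/
def Nr : Set X := {y | (∃ q ∈ L1.G, q b0 = y) ∧ y ≠ b0 ∧ Gam b0 y}

/-- The model. -/
noncomputable def DD : Dat X where
  Q := L1.G
  R := L0.G
  a0 := a0
  b0 := b0
  c0 := c0
  d0 := d0
  t0 := t0
  c := c
  d := d
  Gam := Gam
  Nr := Nr

theorem le12 : L2.G ≤ L1.G := D.Ru.Lv1.Ok.result.le

theorem le01 : L1.G ≤ L0.G := D.Ru.Lv0.Ok.result.le

theorem t0_mem : t0 ∈ L0.G :=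
  L0.G.mul_mem (L0.G.mul_mem (le01 (le12 (L2.ev_mem (by decide)))) (L0.ev_mem (by decide)))
    (le01 (L1.ev_mem (by decide)))

/-! ### Checks -/

theorem t0chk : allR (guard 4060 (fun y => Nat.beq
    (walk (fun x l => F2 l x) (walk (fun x l => F0 l x) (walk (fun x l => F1 l x) y wH) wG) wK)
    (t0T y))) 12 0 = true := by decide +kernel

theorem ccchk : allR (guard 4060 (fun y => Nat.beq (walk (fun x l => F2 l x) y wC) (cc y))) 12 0 = true := by
  decide +kernel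

theorem t0_val (y : X) : (t0 y).val = t0T y.val := by
  have h := all_of_allR (by decide) t0chk y.val y.2
  have h1 := Nat.eq_of_beq_eq_true h
  rw [← h1, t0, Perm.mul_apply, Perm.mul_apply, L2.ev_apply (by decide), L0.ev_apply (by decide),
    L1.ev_apply (by decide)]
  rfl

theorem c_val (y : X) : (c y).val = cc y.val := by
  have h := all_of_allR (by decide) ccchk y.val y.2
  have h1 := Nat.eq_of_beq_eq_true h
  rw [← h1, c, L2.ev_apply (by decide)]
  rfl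

theorem t0a : t0 a0 = b0 := Fin.ext (by rw [t0_val]; decide +kernel)

theorem t0b : t0 b0 = a0 := Fin.ext (by rw [t0_val]; decide +kernel)

theorem c0_val : c0.val = 2580 := by
  show (t0 d0).val = 2580
  rw [t0_val]; decide +kernel

/-! ### The orbital graph -/

theorem Gam_smul {r : Perm X} (hr : r ∈ L0.G) {x y : X} : Gam (r x) (r y) ↔ Gam x y := by
  constructor
  · rintro ⟨r', h1, h2, h3⟩
    refine ⟨r⁻¹ * r', L0.G.mul_mem (L0.G.inv_mem hr) h1, ?_, ?_⟩
    · simp [h2]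
    · simp [h3]
  · rintro ⟨r', h1, h2, h3⟩
    refine ⟨r * r', L0.G.mul_mem hr h1, ?_, ?_⟩
    · simp [h2]
    · simp [h3]

theorem Gam_symm {x y : X} (h : Gam x y) : Gam y x := by
  obtain ⟨r, h1, h2, h3⟩ := h
  refine ⟨r * t0, L0.G.mul_mem h1 t0_mem, ?_, ?_⟩
  · rw [Perm.mul_apply, t0a, h3]
  · rw [Perm.mul_apply, t0b, h2]

theorem Gam_comm {x y : X} : Gam x y ↔ Gam y x := ⟨Gam_symm, Gam_symm⟩

theorem stabA {r : Perm X} (hr : r ∈ L0.G) (h : r a0 = a0) : r ∈ L1.G :=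
  D.Ru.Lv0.Ok.result.stab r hr h

theorem fixA {q : Perm X} (hq : q ∈ L1.G) : q a0 = a0 := D.Ru.Lv0.Ok.result.fix q hq

theorem stabB {r : Perm X} (hr : r ∈ L1.G) (h : r b0 = b0) : r ∈ L2.G :=
  D.Ru.Lv1.Ok.result.stab r hr h

theorem fixB {q : Perm X} (hq : q ∈ L2.G) : q b0 = b0 := D.Ru.Lv1.Ok.result.fix q hq

theorem Gam_a0 {y : X} : Gam a0 y ↔ ∃ q ∈ L1.G, q b0 = y := by
  constructor
  · rintro ⟨r, h1, h2, h3⟩
    exact ⟨r, stabA h1 h2, h3⟩
  · rintro ⟨q, h1, h2⟩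
    exact ⟨q, le01 h1, fixA h1, h2⟩

theorem Gam_b0_a0 : Gam b0 a0 := ⟨t0, t0_mem, t0a, t0b⟩

theorem a0_ne_b0 : a0 ≠ b0 := by decide

theorem Gam_b0_b0 : ¬ Gam b0 b0 := by
  rintro ⟨r, -, h1, h2⟩
  exact a0_ne_b0 (r.injective (h1.trans h2.symm))

/-- `y` is near if and only if it is adjacent to both `a0` and `b0`. -/
theorem mem_Nr {y : X} : y ∈ Nr ↔ Gam a0 y ∧ Gam b0 y := by
  constructor
  · rintro ⟨h1, -, h3⟩
    exact ⟨Gam_a0.2 h1, h3⟩
  · rintro ⟨h1, h3⟩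
    refine ⟨Gam_a0.1 h1, ?_, h3⟩
    rintro rfl
    exact Gam_b0_b0 h3

theorem Nr_swap {r : Perm X} (hr : r ∈ L0.G) (h1 : r a0 = b0) (h2 : r b0 = a0) {y : X}
    (hy : y ∈ Nr) : r y ∈ Nr := by
  rw [mem_Nr] at hy ⊢
  constructor
  · rw [← h2]; exact (Gam_smul hr).2 hy.2
  · rw [← h1]; exact (Gam_smul hr).2 hy.1

theorem t0Nr {y : X} (hy : y ∈ Nr) : t0 y ∈ Nr := Nr_swap t0_mem t0a t0b hy

theorem t0Nr' {y : X} (hy : y ∈ Nr) : t0⁻¹ y ∈ Nr := by
  refine Nr_swap (L0.G.inv_mem t0_mem) ?_ ?_ hy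
  · rw [Perm.inv_eq_iff_eq, t0b]
  · rw [Perm.inv_eq_iff_eq, t0a]

/-! ### The orbit of `b0` -/

/-- Membership in the orbit of `b0`. -/
noncomputable def isO1 (y : ℕ) : Bool :=
  andB (Nat.blt (D.Ru.Lv1.Ok.ptInv y) 1755) (Nat.beq (D.Ru.Lv1.Ok.pt (D.Ru.Lv1.Ok.ptInv y)) y)

theorem pt_inv {c : ℕ} (h : c < 1755) : D.Ru.Lv1.Ok.ptInv (D.Ru.Lv1.Ok.pt c) = c :=
  (orbOK_spec (all_of_allR (by decide) D.Ru.Lv1.Ok.horb c h)).1

theorem isO1_iff {y : X} : isO1 y.val = true ↔ ∃ q ∈ L1.G, q b0 = y := by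
  unfold isO1
  rw [andB_eq_true]
  constructor
  · rintro ⟨h1, h2⟩
    obtain ⟨g, hg, h3⟩ := D.Ru.Lv1.Ok.result.orbit _ (Nat.le_of_ble_eq_true h1)
    refine ⟨g, hg, Fin.ext ?_⟩
    rw [show b0 = D.Ru.Lv1.Ok.p from rfl, h3]
    exact Nat.eq_of_beq_eq_true h2
  · rintro ⟨q, hq, rfl⟩
    obtain ⟨e, he, h3⟩ := D.Ru.Lv1.Ok.result.orbit' q hq
    rw [show b0 = D.Ru.Lv1.Ok.p from rfl, h3, pt_inv he]
    exact ⟨Nat.ble_eq_true_of_le he, by simp⟩

/-! ### The rows -/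

/-- The packed permutations. -/
noncomputable def PT (cd : ℕ) : ℕ :=
  Bool.rec (Bool.rec t0Lit (tree2.get (Nat.sub cd 3)) (Nat.blt cd 8)) (tree1.get cd) (Nat.blt cd 3)

/-- The permutations. -/
noncomputable def E (cd : ℕ) : Perm X :=
  if cd < 3 then L1.val cd else if cd < 8 then L2.val (cd - 3) else t0

theorem E_mem (cd : ℕ) (h : cd < 9) : E cd ∈ L0.G := by
  unfold E
  split_ifs with h1 h2
  · exact le01 (L1.val_mem h1)
  · exact le01 (le12 (L2.val_mem (show cd - 3 < 5 by omega)))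
  · exact t0_mem

theorem E_val {cd : ℕ} (h : cd < 9) (y : X) : (E cd y).val = cell 12 4095 (PT cd) y.val := by
  unfold E PT
  split_ifs with h1 h2
  · have e1 : Nat.blt cd 3 = true := Nat.ble_eq_true_of_le h1
    rw [e1, L1.val_apply h1]
    rfl
  · have e1 : Nat.blt cd 3 = false := by
      cases h3 : Nat.blt cd 3
      · rfl
      · exact absurd (Nat.le_of_ble_eq_true h3) h1
    have e2 : Nat.blt cd 8 = true := Nat.ble_eq_true_of_le h2
    rw [e1, e2, L2.val_apply (show cd - 3 < 5 by omega)]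
    rfl
  · have e1 : Nat.blt cd 3 = false := by
      cases h3 : Nat.blt cd 3
      · rfl
      · exact absurd (Nat.le_of_ble_eq_true h3) h1
    have e2 : Nat.blt cd 8 = false := by
      cases h3 : Nat.blt cd 8
      · rfl
      · exact absurd (Nat.le_of_ble_eq_true h3) h2
    rw [e1, e2, t0_val]
    rfl

/-- The check of an edge of the tree of rows. -/
noncomputable def edgeChk (i : ℕ) : Bool :=
  force (rPar i) fun p => force (rCode i) fun cd => force (PT cd) fun P =>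
    force (rowAt i) fun ri => force (rowAt p) fun rp =>
      andB (Nat.blt p i) (andB (Nat.blt cd 9) (andB (Nat.blt (rPt i) 4060)
        (andB (Nat.beq (cell 12 4095 P (rPt p)) (rPt i))
          (allR (guard 4060 (fun y => bieq (bt ri (cell 12 4095 P y)) (bt rp y))) 12 0))))

theorem edgeChk_spec {i : ℕ} (h : edgeChk i = true) :
    rPar i < i ∧ rCode i < 9 ∧ rPt i < 4060 ∧ cell 12 4095 (PT (rCode i)) (rPt (rPar i)) = rPt i ∧
    ∀ y, y < 4060 → bt (rowAt i) (cell 12 4095 (PT (rCode i)) y) = bt (rowAt (rPar i)) y := by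
  simp only [edgeChk, force_eq, andB_eq_true] at h
  obtain ⟨h1, h2, h3, h4, h5⟩ := h
  refine ⟨Nat.le_of_ble_eq_true h1, Nat.le_of_ble_eq_true h2, Nat.le_of_ble_eq_true h3,
    Nat.eq_of_beq_eq_true h4, ?_⟩
  intro y hy
  exact (bieq_eq_true _ _).1 (all_of_allR (by decide) h5 y hy)

end Cfsg.Agent.Lib.RuRec.Cc
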