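import Cfsg.Agent.Lib.RuRec.Cc

/-!
# Rank three recognition of the Rudvalis group: the rows of the adjacency matrix
-/

set_option autoImplicit false
set_option linter.unusedVariables false
set_option maxRecDepth 100000

namespace Cfsg.Agent.Lib.RuRec.Cc

open Equiv Cfsg.Agent.Lib.CosetCert Cfsg.Agent.Lib.CosetCert.D.Ru.Tbl Cfsg.Agent.Lib.TC.Core
  Cfsg.Agent.Lib.TC.Enc Cfsg.Agent.Lib.RuRec.Dfs Cfsg.Agent.Lib.RuRec.Tb

/-- The checks of the edges. -/
noncomputable def edgeP : ℕ → Bool := guard 741 (fun i => Bool.rec (edgeChk i) true (Nat.beq i 0))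

theorem edges0 : allR edgeP 7 0 = true := by decide +kernel

theorem edges1 : allR edgeP 7 128 = true := by decide +kernel

theorem edges2 : allR edgeP 7 256 = true := by decide +kernel

theorem edges3 : allR edgeP 7 384 = true := by decide +kernel

theorem edges4 : allR edgeP 7 512 = true := by decide +kernel

theorem edges5 : allR edgeP 7 640 = true := by decide +kernel

theorem edges6 : allR edgeP 8 768 = true := by decide +kernel

theorem edgesAll : allR (guard 741 (fun i => Bool.rec (edgeChk i) true (Nat.beq i 0))) 10 0 = true :=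
  allR_node (d := 9) (lo := 0) (mid := 512) rfl
    (allR_node (d := 8) (lo := 0) (mid := 256) rfl
      (allR_node (d := 7) (lo := 0) (mid := 128) rfl edges0 edges1)
      (allR_node (d := 7) (lo := 256) (mid := 384) rfl edges2 edges3))
    (allR_node (d := 8) (lo := 512) (mid := 768) rfl
      (allR_node (d := 7) (lo := 512) (mid := 640) rfl edges4 edges5) edges6)

theorem row0chk : allR (guard 4060 (fun y => bieq (bt (rowAt 0) y) (isO1 y))) 12 0 = true := by
  decide +kernel

theorem rixChk : allR (guard 4060 (fun y => Bool.rec (Nat.beq (rPt (rix y)) y) true (Nat.ble 741 (rix y)))) 12 0 = true := by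
  decide +kernel

theorem rPt0 : rPt 0 = 0 := by decide +kernel

theorem toX_a0 : toX 0 = a0 := rfl

theorem row_ok (i : ℕ) (hi : i < 741) :
    rPt i < 4060 ∧ ∀ y : X, Gam (toX (rPt i)) y ↔ bt (rowAt i) y.val = true := by
  induction i using Nat.strong_induction_on with
  | _ i ih =>
    rcases Nat.eq_zero_or_pos i with rfl | h0
    · refine ⟨by rw [rPt0]; decide, fun y => ?_⟩
      rw [rPt0, toX_a0, Gam_a0, ← isO1_iff]
      have h := all_of_allR (by decide) row0chk y.val y.2
      rw [(bieq_eq_true _ _).1 h]
    · have h1 := all_of_allR (by decide) edgesAll i hi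
      have h2 : Nat.beq i 0 = false := by
        cases h3 : Nat.beq i 0
        · rfl
        · have := Nat.eq_of_beq_eq_true h3; omega
      rw [h2] at h1
      obtain ⟨hp, hcd, hlt, he, hrow⟩ := edgeChk_spec h1
      obtain ⟨hp1, hp2⟩ := ih _ hp (by omega)
      refine ⟨hlt, fun y => ?_⟩
      have h3 : E (rCode i) (toX (rPt (rPar i))) = toX (rPt i) := by
        apply Fin.ext
        rw [E_val hcd, toX_val hp1, he, toX_val hlt]
      have hm := E_mem _ hcd
      have h4 : y = E (rCode i) ((E (rCode i))⁻¹ y) := by simp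
      have h5 := hrow _ ((E (rCode i))⁻¹ y).2
      rw [← E_val hcd, ← h4] at h5
      rw [← h3, h4, Gam_smul hm, hp2, ← h4, h5]

theorem Gam_R {x : X} (hx : rix x.val < 741) (y : X) :
    Gam x y ↔ bt (R x.val) y.val = true := by
  have h1 := all_of_allR (by decide) rixChk x.val x.2
  have h2 : Nat.ble 741 (rix x.val) = false := by
    cases h3 : Nat.ble 741 (rix x.val)
    · rfl
    · have := Nat.le_of_ble_eq_true h3; omega
  rw [h2] at h1
  have h3 : rPt (rix x.val) = x.val := Nat.eq_of_beq_eq_true h1
  have h4 := (row_ok _ hx).2 y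
  rw [h3, toX_of_val] at h4
  exact h4

end Cfsg.Agent.Lib.RuRec.Cc
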