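import Cfsg.Agent.Lib.RuRec.Ck1

/-!
# Rank three recognition of the Rudvalis group: the orbits
-/

set_option autoImplicit false
set_option linter.unusedVariables false
set_option maxRecDepth 100000

namespace Cfsg.Agent.Lib.RuRec.Cc

open Equiv Cfsg.Agent.Lib.CosetCert Cfsg.Agent.Lib.CosetCert.D.Ru.Tbl Cfsg.Agent.Lib.TC.Core
  Cfsg.Agent.Lib.TC.Enc Cfsg.Agent.Lib.RuRec.Dfs Cfsg.Agent.Lib.RuRec.Tb

theorem nearChk : allR (guard 4060 (fun y =>
    andB (bieq (Nat.blt (kidx y) 730) (andB (isO1 y) (andB (!(Nat.beq y 3849)) (bt (R 3849) y))))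
    (andB (bieq (Nat.blt (kidx y) 1754) (andB (isO1 y) (!(Nat.beq y 3849))))
    (Bool.rec true (andB (Nat.beq (kpt (kidx y)) y) (Bool.rec true (Nat.blt (rix y) 741) (Nat.blt (kidx y) 730)))
      (Nat.blt (kidx y) 1754))))) 12 0 = true := by
  decide +kernel

theorem kptChk : allR (guard 1754 (fun j => andB (Nat.beq (kidx (kpt j)) j) (Nat.blt (kpt j) 4060))) 11 0 = true := by
  decide +kernel

theorem rix_b0 : rix b0.val < 741 := by decide +kernel
theorem rix_a0 : rix a0.val < 741 := by decide +kernel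
theorem rix_d0 : rix d0.val < 741 := by decide +kernel
theorem rix_c0 : rix c0.val < 741 := by rw [c0_val]; decide +kernel

theorem kidx_kpt {j : ℕ} (h : j < 1754) : kidx (kpt j) = j :=
  Nat.eq_of_beq_eq_true ((andB_eq_true _ _).1 (all_of_allR (by decide) kptChk j h)).1

theorem kpt_lt {j : ℕ} (h : j < 1754) : kpt j < 4060 :=
  Nat.le_of_ble_eq_true ((andB_eq_true _ _).1 (all_of_allR (by decide) kptChk j h)).2

theorem b0_val : b0.val = 3849 := rfl

theorem mem_Nr_iff {y : X} : y ∈ Nr ↔ kidx y.val < 730 := by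
  have h := all_of_allR (by decide) nearChk y.val y.2
  simp only [andB_eq_true, bieq_eq_true] at h
  have h1 := h.1
  have hne : y ≠ b0 ↔ (!Nat.beq y.val 3849) = true := by
    rw [Bool.not_eq_true', ← b0_val]
    constructor
    · intro h2
      cases h3 : Nat.beq y.val b0.val
      · rfl
      · exact absurd (Fin.ext (Nat.eq_of_beq_eq_true h3)) h2
    · rintro h2 rfl
      simp at h2
  constructor
  · rintro ⟨h2, h3, h4⟩
    have h5 : andB (isO1 y.val) (andB (!Nat.beq y.val 3849) (bt (R 3849) y.val)) = true := by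
      rw [andB_eq_true, andB_eq_true]
      exact ⟨isO1_iff.2 h2, hne.1 h3, (Gam_R rix_b0 y).1 h4⟩
    rw [← h1] at h5
    exact Nat.le_of_ble_eq_true h5
  · intro h2
    have h5 : Nat.blt (kidx y.val) 730 = true := Nat.ble_eq_true_of_le h2
    rw [h1, andB_eq_true, andB_eq_true] at h5
    exact ⟨isO1_iff.1 h5.1, hne.2 h5.2.1, (Gam_R rix_b0 y).2 h5.2.2⟩

theorem mem_O1' {y : X} : ((∃ q ∈ L1.G, q b0 = y) ∧ y ≠ b0) ↔ kidx y.val < 1754 := by
  have h := all_of_allR (by decide) nearChk y.val y.2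
  simp only [andB_eq_true, bieq_eq_true] at h
  have h1 := h.2.1
  have hne : y ≠ b0 ↔ (!Nat.beq y.val 3849) = true := by
    rw [Bool.not_eq_true', ← b0_val]
    constructor
    · intro h2
      cases h3 : Nat.beq y.val b0.val
      · rfl
      · exact absurd (Fin.ext (Nat.eq_of_beq_eq_true h3)) h2
    · rintro h2 rfl
      simp at h2
  constructor
  · rintro ⟨h2, h3⟩
    have h5 : andB (isO1 y.val) (!Nat.beq y.val 3849) = true := by
      rw [andB_eq_true]
      exact ⟨isO1_iff.2 h2, hne.1 h3⟩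
    rw [← h1] at h5
    exact Nat.le_of_ble_eq_true h5
  · intro h2
    have h5 : Nat.blt (kidx y.val) 1754 = true := Nat.ble_eq_true_of_le h2
    rw [h1, andB_eq_true] at h5
    exact ⟨isO1_iff.1 h5.1, hne.2 h5.2⟩

theorem kpt_kidx {y : X} (h : kidx y.val < 1754) : toX (kpt (kidx y.val)) = y := by
  have h0 := all_of_allR (by decide) nearChk y.val y.2
  simp only [andB_eq_true, bieq_eq_true] at h0
  have h1 := h0.2.2
  have e1 : Nat.blt (kidx y.val) 1754 = true := Nat.ble_eq_true_of_le h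
  rw [e1] at h1
  have h2 := (andB_eq_true _ _).1 h1
  apply Fin.ext
  rw [Nat.eq_of_beq_eq_true h2.1, toX_val y.2]

theorem rix_near {y : X} (h : kidx y.val < 730) : rix y.val < 741 := by
  have h0 := all_of_allR (by decide) nearChk y.val y.2
  simp only [andB_eq_true, bieq_eq_true] at h0
  have h1 := h0.2.2
  have e1 : Nat.blt (kidx y.val) 1754 = true := Nat.ble_eq_true_of_le (show kidx y.val < 1754 by omega)
  rw [e1] at h1
  have h2 := (andB_eq_true _ _).1 h1
  have h3 := h2.2
  have e2 : Nat.blt (kidx y.val) 730 = true := Nat.ble_eq_true_of_le h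
  rw [e2] at h3
  exact Nat.le_of_ble_eq_true h3

theorem mem_D4 {y : X} : y ∈ DD.D4 ↔ 730 ≤ kidx y.val ∧ kidx y.val < 1754 := by
  constructor
  · rintro ⟨⟨q, hq, h1⟩, h2, h3⟩
    have h4 : kidx y.val < 1754 := mem_O1'.1 ⟨⟨q, hq, h1⟩, h2⟩
    refine ⟨?_, h4⟩
    by_contra h5
    have h6 : y ∈ Nr := mem_Nr_iff.2 (by omega)
    exact h3 h6.2.2
  · rintro ⟨h1, h2⟩
    obtain ⟨h3, h4⟩ := mem_O1'.2 h2
    refine ⟨h3, h4, fun h5 => ?_⟩
    have h6 : y ∈ Nr := ⟨h3, h4, h5⟩
    have := mem_Nr_iff.1 h6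
    omega

theorem d0mem : d0 ∈ DD.D4 := by
  rw [mem_D4]
  constructor <;> decide +kernel

/-! ### The classes of the stabiliser -/

/-- The class of an index. -/
def cls (j : ℕ) : ℕ := if j < 10 then 0 else if j < 90 then 1 else if j < 730 then 2 else 3

/-- The root of a class. -/
def rootI (m : ℕ) : ℕ := if m = 0 then 0 else if m = 1 then 10 else if m = 2 then 90 else 730

/-- A choice of classes. -/
def sel (b0 b1 b2 b3 : Bool) (m : ℕ) : Bool :=
  if m = 0 then b0 else if m = 1 then b1 else if m = 2 then b2 else b3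

theorem cnt_lemma : ∀ b0 b1 b2 b3 : Bool,
    256 ∣ 1754 - ((Finset.range 1754).filter (fun j => sel b0 b1 b2 b3 (cls j) = true)).card →
      b0 = true ∧ b1 = true ∧ b2 = true := by
  decide +kernel

/-- The forest of the classes. -/
noncomputable def forChk (j : ℕ) : Bool :=
  Bool.rec
    (andB (Nat.blt (kp j) j) (andB (Nat.blt (kl j) 5) (andB (Nat.blt 0 1)
      (Nat.beq (F2 (kl j) (kpt (kp j))) (kpt j)))))
    true (Nat.beq (rootI (cls j)) j)

theorem forAll : allR (guard 1754 forChk) 11 0 = true := by decide +kernel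

theorem clsChk : allR (guard 1754 (fun j => Bool.rec (Nat.beq (cls (kp j)) (cls j)) true (Nat.beq (rootI (cls j)) j))) 11 0 = true := by
  decide +kernel

theorem classes {S : Set X} (hS : ∀ q ∈ L1.G, q b0 = b0 → ∀ y ∈ S, q y ∈ S) :
    ∀ j, j < 1754 → (toX (kpt j) ∈ S ↔ toX (kpt (rootI (cls j))) ∈ S) := by
  intro j
  induction j using Nat.strong_induction_on with
  | _ j ih =>
    intro hj
    have h1 := all_of_allR (by decide) forAll j hj
    have h2 := all_of_allR (by decide) clsChk j hj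
    unfold forChk at h1
    cases h3 : Nat.beq (rootI (cls j)) j with
    | true =>
      rw [Nat.eq_of_beq_eq_true h3]
    | false =>
      rw [h3] at h1 h2
      have h4 : andB (Nat.blt (kp j) j) (andB (Nat.blt (kl j) 5) (andB (Nat.blt 0 1)
        (Nat.beq (F2 (kl j) (kpt (kp j))) (kpt j)))) = true := h1
      simp only [andB_eq_true] at h4
      obtain ⟨h5, h6, -, h7⟩ := h4
      have h5' : kp j < j := Nat.le_of_ble_eq_true h5
      have h6' : kl j < 5 := Nat.le_of_ble_eq_true h6
      have h7' : F2 (kl j) (kpt (kp j)) = kpt j := Nat.eq_of_beq_eq_true h7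
      have h8 : cls (kp j) = cls j := Nat.eq_of_beq_eq_true h2
      have h9 := ih _ h5' (by omega)
      rw [h8] at h9
      rw [← h9]
      have hv : L2.val (kl j) (toX (kpt (kp j))) = toX (kpt j) := by
        apply Fin.ext
        rw [L2.val_apply h6', toX_val (kpt_lt (by omega)), toX_val (kpt_lt hj)]
        exact h7'
      have hm : L2.val (kl j) ∈ L2.G := L2.val_mem h6'
      constructor
      · intro h10
        have h11 := hS _ (le12 (L2.G.inv_mem hm)) (fixB (L2.G.inv_mem hm)) _ h10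
        rw [← hv] at h11
        simpa using h11
      · intro h10
        have h11 := hS _ (le12 hm) (fixB hm) _ h10
        rwa [hv] at h11

theorem sel_cls (a : ℕ → Bool) (j : ℕ) : sel (a 0) (a 1) (a 2) (a 3) (cls j) = a (cls j) := by
  unfold sel cls
  split_ifs <;> simp_all

theorem sel_all {b0 b1 b2 b3 : Bool} (h0 : b0 = true) (h1 : b1 = true) (h2 : b2 = true)
    (h3 : b3 = true) (m : ℕ) : sel b0 b1 b2 b3 m = true := by
  unfold sel
  split_ifs <;> assumption

theorem sel_near {b0 b1 b2 b3 : Bool} (h0 : b0 = true) (h1 : b1 = true) (h2 : b2 = true)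
    {j : ℕ} (hj : j < 730) : sel b0 b1 b2 b3 (cls j) = true := by
  have h : cls j = 0 ∨ cls j = 1 ∨ cls j = 2 := by
    unfold cls
    split_ifs <;> omega
  rcases h with h | h | h <;> rw [h] <;> simp [sel, h0, h1, h2]

theorem hD (S : Set X) (hS : ∀ q ∈ L1.G, q b0 = b0 → ∀ y ∈ S, q y ∈ S)
    (hS2 : ∀ y ∈ S, (∃ q ∈ L1.G, q b0 = y) ∧ y ≠ b0) (hd : 256 ∣ 1754 - S.ncard) :
    S = Nr ∨ ∀ y, (∃ q ∈ L1.G, q b0 = y) → y ≠ b0 → y ∈ S := by
  classical
  have hc := classes hS
  set a : ℕ → Bool := fun m => decide (toX (kpt (rootI m)) ∈ S) with ha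
  have key : ∀ j, j < 1754 → (toX (kpt j) ∈ S ↔ sel (a 0) (a 1) (a 2) (a 3) (cls j) = true) := by
    intro j hj
    rw [sel_cls, hc j hj, ha]
    simp
  set F := (Finset.range 1754).filter (fun j => sel (a 0) (a 1) (a 2) (a 3) (cls j) = true) with hF
  have hS3 : S = ((F.image (fun j => toX (kpt j)) : Finset X) : Set X) := by
    ext y
    simp only [Finset.coe_image, Set.mem_image, Finset.mem_coe, hF, Finset.mem_filter, Finset.mem_range]
    constructor
    · intro hy
      have h1 := mem_O1'.1 (hS2 y hy)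
      have h2 := kpt_kidx h1
      refine ⟨_, ⟨h1, (key _ h1).1 ?_⟩, h2⟩
      rw [h2]; exact hy
    · rintro ⟨j, ⟨h1, h2⟩, rfl⟩
      exact (key j h1).2 h2
  have hcard : S.ncard = F.card := by
    rw [hS3, Set.ncard_coe_finset, Finset.card_image_of_injOn]
    intro j hj j' hj' h
    simp only [hF, Finset.coe_filter, Finset.mem_range, Set.mem_ofPred_eq] at hj hj'
    have h1 := congrArg Fin.val h
    simp only at h1
    rw [toX_val (kpt_lt hj.1), toX_val (kpt_lt hj'.1)] at h1
    rw [← kidx_kpt hj.1, ← kidx_kpt hj'.1, h1]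
  rw [hcard] at hd
  obtain ⟨h1, h2, h3⟩ := cnt_lemma _ _ _ _ hd
  cases h4 : a 3 with
  | true =>
    right
    intro y hy hy2
    have h5 := mem_O1'.1 ⟨hy, hy2⟩
    have h6 := (key _ h5).2
    rw [kpt_kidx h5] at h6
    exact h6 (sel_all h1 h2 h3 h4 _)
  | false =>
    left
    ext y
    rw [mem_Nr_iff]
    constructor
    · intro hy
      have h5 := mem_O1'.1 (hS2 y hy)
      have h6 := (key _ h5).1 (by rw [kpt_kidx h5]; exact hy)
      by_contra h7
      have h8 : cls (kidx y.val) = 3 := by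
        clear_value a F
        clear key hS3 hcard hd
        unfold cls
        split_ifs <;> omega
      rw [h8] at h6
      simp [sel, h4] at h6
    · intro h5
      have h6 := (key _ (show kidx y.val < 1754 by omega)).2
      rw [kpt_kidx (show kidx y.val < 1754 by omega)] at h6
      exact h6 (sel_near h1 h2 h3 h5)

/-! ### The second orbit -/

/-- The check of the tree of the second orbit. -/
noncomputable def o2Chk (i : ℕ) : Bool :=
  andB (Nat.blt (pt2 i) 4060)
    (Bool.rec (andB (Nat.blt (pp2 i) i) (andB (Nat.blt (pl2 i) 3) (Nat.beq (F1 (pl2 i) (pt2 (pp2 i))) (pt2 i))))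
      (Nat.beq (pt2 i) 2580) (Nat.beq i 0))

theorem o2All : allR (guard 2304 o2Chk) 12 0 = true := by decide +kernel

theorem covChk : allR (guard 4060 (fun y => Bool.rec (Bool.rec
    (andB (Nat.blt (idx2 y) 2304) (Nat.beq (pt2 (idx2 y)) y)) true (isO1 y)) true (Nat.beq y 0))) 12 0 = true := by
  decide +kernel

theorem inO2 : ∀ i, i < 2304 → pt2 i < 4060 ∧ ∃ q ∈ L1.G, q c0 = toX (pt2 i) := by
  intro i
  induction i using Nat.strong_induction_on with
  | _ i ih =>
    intro hi
    have h1 := all_of_allR (by decide) o2All i hi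
    unfold o2Chk at h1
    rw [andB_eq_true] at h1
    have h2 : pt2 i < 4060 := Nat.le_of_ble_eq_true h1.1
    refine ⟨h2, ?_⟩
    have h3 := h1.2
    cases h4 : Nat.beq i 0 with
    | true =>
      rw [h4] at h3
      have h5 : pt2 i = 2580 := Nat.eq_of_beq_eq_true h3
      refine ⟨1, L1.G.one_mem, Fin.ext ?_⟩
      rw [toX_val h2, h5, Perm.one_apply, c0_val]
    | false =>
      rw [h4] at h3
      have h5 : andB (Nat.blt (pp2 i) i) (andB (Nat.blt (pl2 i) 3) (Nat.beq (F1 (pl2 i) (pt2 (pp2 i))) (pt2 i))) = true := h3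
      simp only [andB_eq_true] at h5
      have h6 : pp2 i < i := Nat.le_of_ble_eq_true h5.1
      have h7 : pl2 i < 3 := Nat.le_of_ble_eq_true h5.2.1
      have h8 : F1 (pl2 i) (pt2 (pp2 i)) = pt2 i := Nat.eq_of_beq_eq_true h5.2.2
      obtain ⟨h9, q, hq, h10⟩ := ih _ h6 (by omega)
      refine ⟨L1.val (pl2 i) * q, L1.G.mul_mem (L1.val_mem h7) hq, Fin.ext ?_⟩
      rw [Perm.mul_apply, h10, L1.val_apply h7, toX_val h9, toX_val h2]
      exact h8

theorem cover (x : X) : x = a0 ∨ (∃ q ∈ L1.G, q b0 = x) ∨ (∃ q ∈ L1.G, q c0 = x) := by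
  have h := all_of_allR (by decide) covChk x.val x.2
  cases h1 : Nat.beq x.val 0 with
  | true => exact Or.inl (Fin.ext (Nat.eq_of_beq_eq_true h1))
  | false =>
    rw [h1] at h
    cases h2 : isO1 x.val with
    | true => exact Or.inr (Or.inl (isO1_iff.1 h2))
    | false =>
      rw [h2] at h
      have h3 : andB (Nat.blt (idx2 x.val) 2304) (Nat.beq (pt2 (idx2 x.val)) x.val) = true := h
      rw [andB_eq_true] at h3
      obtain ⟨-, q, hq, h4⟩ := inO2 _ (Nat.le_of_ble_eq_true h3.1)
      refine Or.inr (Or.inr ⟨q, hq, ?_⟩)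
      rw [h4, Nat.eq_of_beq_eq_true h3.2, toX_of_val]

theorem a0_not1 : ¬ ∃ q ∈ L1.G, q b0 = a0 := by
  rintro ⟨q, hq, h⟩
  have h1 := fixA hq
  exact a0_ne_b0 (q.injective (h1.trans h.symm))

theorem a0_not2 : ¬ ∃ q ∈ L1.G, q c0 = a0 := by
  rintro ⟨q, hq, h⟩
  have h1 := fixA hq
  have h2 : a0 = c0 := q.injective (h1.trans h.symm)
  have h3 := congrArg Fin.val h2
  rw [c0_val] at h3
  exact absurd h3 (by decide)

theorem c0_not1 : ¬ ∃ q ∈ L1.G, q b0 = c0 := by
  intro h
  have h1 := isO1_iff.2 h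
  rw [c0_val] at h1
  revert h1
  decide +kernel

theorem disj (x : X) (h1 : ∃ q ∈ L1.G, q b0 = x) (h2 : ∃ q ∈ L1.G, q c0 = x) : False := by
  obtain ⟨p, hp, rfl⟩ := h1
  obtain ⟨q, hq, h3⟩ := h2
  refine c0_not1 ⟨q⁻¹ * p, L1.G.mul_mem (L1.G.inv_mem hq) hp, ?_⟩
  rw [Perm.mul_apply, ← h3]
  simp

theorem cardO1 : {x : X | ∃ q ∈ L1.G, q b0 = x}.ncard = 1755 := by
  classical
  have h1 : {x : X | ∃ q ∈ L1.G, q b0 = x} =
      (((Finset.range 1755).image (fun c => toX (D.Ru.Lv1.Ok.pt c)) : Finset X) : Set X) := by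
    ext x
    simp only [Set.mem_ofPred_eq, Finset.coe_image, Set.mem_image, Finset.mem_coe, Finset.mem_range]
    constructor
    · rintro ⟨q, hq, rfl⟩
      obtain ⟨c, hc, h2⟩ := D.Ru.Lv1.Ok.result.orbit' q hq
      refine ⟨c, hc, ?_⟩
      rw [← h2]
      exact toX_of_val _
    · rintro ⟨c, hc, rfl⟩
      obtain ⟨q, hq, h2⟩ := D.Ru.Lv1.Ok.result.orbit c hc
      refine ⟨q, hq, ?_⟩
      rw [← h2]
      exact (toX_of_val _).symm
  rw [h1, Set.ncard_coe_finset, Finset.card_image_of_injOn, Finset.card_range]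
  intro i hi j hj h
  simp only [Finset.coe_range, Set.mem_Iio] at hi hj
  have hlt : ∀ c, c < 1755 → D.Ru.Lv1.Ok.pt c < 4060 := by
    intro c hc
    obtain ⟨q, hq, h2⟩ := D.Ru.Lv1.Ok.result.orbit c hc
    rw [← h2]
    exact (q D.Ru.Lv1.Ok.p).2
  have h2 := congrArg Fin.val h
  simp only at h2
  rw [toX_val (hlt i hi), toX_val (hlt j hj)] at h2
  rw [← pt_inv hi, ← pt_inv hj, h2]

theorem cardO2 : {x : X | ∃ q ∈ L1.G, q c0 = x}.ncard = 2304 := by
  classical
  set A : Set X := {x : X | ∃ q ∈ L1.G, q b0 = x} with hA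
  set B : Set X := {x : X | ∃ q ∈ L1.G, q c0 = x} with hB
  have h1 : (Set.univ : Set X) = {a0} ∪ (A ∪ B) := by
    ext x
    simp only [Set.mem_univ, Set.mem_union, Set.mem_singleton_iff, true_iff]
    exact cover x
  have h2 : Disjoint A B := by
    rw [Set.disjoint_left]
    exact fun x hx hy => disj x hx hy
  have h3 : Disjoint ({a0} : Set X) (A ∪ B) := by
    rw [Set.disjoint_singleton_left]
    rintro (h | h)
    · exact a0_not1 h
    · exact a0_not2 h
  have h4 := Set.ncard_union_eq h3 (Set.toFinite _) (Set.toFinite _)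
  have h5 := Set.ncard_union_eq h2 (Set.toFinite _) (Set.toFinite _)
  rw [← h1, Set.ncard_univ, Set.ncard_singleton, h5, cardO1] at h4
  simp only [Nat.card_eq_fintype_card, Fintype.card_fin] at h4
  omega

/-! ### The decision tree -/

/-- The good rows. -/
noncomputable def goodRow (i : ℕ) : Bool :=
  andB (Nat.blt i 741) (Bool.rec (Bool.rec (Nat.blt (kidx (rPt i)) 730) true (Nat.beq (rPt i) 3849)) true (Nat.beq (rPt i) 0))

theorem dtOk : DT.ok goodRow dtree = true := by decide +kernel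

theorem dtEv : allR (guard 4060 (fun x => Nat.beq (DT.ev rowAt x dtree) x)) 12 0 = true := by decide +kernel

theorem pat_inj (x x' : X) (h : ∀ y, (y = a0 ∨ y = b0 ∨ y ∈ Nr) → (Gam y x ↔ Gam y x')) : x = x' := by
  have h1 : ∀ i, goodRow i = true → bt (rowAt i) x.val = bt (rowAt i) x'.val := by
    intro i hi
    unfold goodRow at hi
    rw [andB_eq_true] at hi
    have hi' : i < 741 := Nat.le_of_ble_eq_true hi.1
    obtain ⟨hl, hr⟩ := row_ok i hi'
    have h2 : toX (rPt i) = a0 ∨ toX (rPt i) = b0 ∨ toX (rPt i) ∈ Nr := by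
      have h3 := hi.2
      cases h4 : Nat.beq (rPt i) 0 with
      | true => exact Or.inl (Fin.ext (by rw [toX_val hl]; exact Nat.eq_of_beq_eq_true h4))
      | false =>
        rw [h4] at h3
        cases h5 : Nat.beq (rPt i) 3849 with
        | true => exact Or.inr (Or.inl (Fin.ext (by rw [toX_val hl]; exact Nat.eq_of_beq_eq_true h5)))
        | false =>
          rw [h5] at h3
          refine Or.inr (Or.inr (mem_Nr_iff.2 ?_))
          rw [toX_val hl]
          exact Nat.le_of_ble_eq_true h3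
    have h6 := h _ h2
    rw [hr, hr] at h6
    exact Bool.eq_iff_iff.2 h6
  have h2 := DT.ev_congr dtree dtOk h1
  have h3 := Nat.eq_of_beq_eq_true (all_of_allR (by decide) dtEv x.val x.2)
  have h4 := Nat.eq_of_beq_eq_true (all_of_allR (by decide) dtEv x'.val x'.2)
  exact Fin.ext (by rw [← h3, ← h4, h2])

/-! ### The elements `c` and `d` -/

theorem c5chk : allR (guard 4060 (fun y => Nat.beq (cc (cc (cc (cc (cc y))))) y)) 12 0 = true := by decide +kernel

theorem dcchk : allR (guard 4060 (fun y => Nat.beq (walk (fun x l => F2 l x) (cc y) wD)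
    (cc (cc (walk (fun x l => F2 l x) y wD))))) 12 0 = true := by decide +kernel

theorem c_mem : c ∈ L2.G := L2.ev_mem (by decide)

theorem d_mem : d ∈ L2.G := L2.ev_mem (by decide)

theorem c5 : c ^ 5 = 1 := by
  ext x
  have h := Nat.eq_of_beq_eq_true (all_of_allR (by decide) c5chk x.val x.2)
  simp only [pow_succ, pow_zero, one_mul, Perm.mul_apply, c_val, Perm.one_apply]
  exact h

theorem cne : c ≠ 1 := by
  intro h
  have h1 := c_val ⟨11, by decide⟩
  rw [h, Perm.one_apply] at h1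
  revert h1
  decide +kernel

theorem d_val (y : X) : (d y).val = walk (fun x l => F2 l x) y.val wD := by
  rw [d, L2.ev_apply (by decide)]
  rfl

theorem dc : d * c * d⁻¹ = c ^ 2 := by
  rw [mul_inv_eq_iff_eq_mul]
  ext x
  have h := Nat.eq_of_beq_eq_true (all_of_allR (by decide) dcchk x.val x.2)
  simp only [pow_succ, pow_zero, one_mul, Perm.mul_apply]
  rw [d_val, c_val, c_val, c_val, d_val]
  exact h

theorem cardK : Nat.card (L1.G ⊓ MulAction.stabilizer (Perm X) b0 : Subgroup (Perm X)) = 20480 := by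
  have h : (L1.G ⊓ MulAction.stabilizer (Perm X) b0 : Subgroup (Perm X)) = L2.G := by
    apply le_antisymm
    · rintro g ⟨h1, h2⟩
      exact stabB h1 h2
    · intro g hg
      exact ⟨le12 hg, fixB hg⟩
  rw [h]
  exact D.Ru.Final.card2

end Cfsg.Agent.Lib.RuRec.Cc
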