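import Cfsg.Agent.Lib.RuRec.Ck2

/-!
# Rank three recognition of the Rudvalis group: the rigidity of the graph on the near points
-/

set_option autoImplicit false
set_option linter.unusedVariables false
set_option maxRecDepth 100000

namespace Cfsg.Agent.Lib.RuRec.Cc

open Equiv Cfsg.Agent.Lib.CosetCert Cfsg.Agent.Lib.CosetCert.D.Ru.Tbl Cfsg.Agent.Lib.TC.Core
  Cfsg.Agent.Lib.TC.Enc Cfsg.Agent.Lib.RuRec.Dfs Cfsg.Agent.Lib.RuRec.Tb

/-- The end of the search. -/
noncomputable def leafF (vals : List (ℕ × ℕ)) : Bool :=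
  anyE (fun e => allL (fun q => Nat.beq (T e q.1) q.2) vals) 80

theorem dfsChk : ext R cc leafF NM rM 800 ordL [] [] = true := by decide +kernel

theorem rM_eq : rM = 2 ^ 4060 - 1 := by decide +kernel

theorem ordChk : allL (fun p => andB (Nat.blt p.1 4060) (Nat.blt (kidx p.1) 730)) ordL = true := by
  decide +kernel

theorem nmChk : allR (guard 4060 (fun y => Bool.rec true (bt NM y) (Nat.blt (kidx y) 730))) 12 0 = true := by
  decide +kernel

/-- The check of the powers of `c`. -/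
noncomputable def pwChk (j : ℕ) : Bool :=
  force (kpt j) fun y =>
    Bool.rec
      (andB (Nat.beq (Nat.succ (pwT (kidx (cc (cc (cc (cc y))))))) (pwT j))
        (Nat.beq (cc (cc (cc (cc (cc y))))) y))
      (anyL (fun p => Nat.beq p.1 y) ordL)
      (Nat.beq (pwT j) 0)

theorem pwAll : allR (guard 730 pwChk) 10 0 = true := by decide +kernel

theorem tcChk : allLt (fun e => allR (guard 730 (fun j => Nat.beq (T e (cc (kpt j))) (cc (T e (kpt j))))) 10 0) 80 = true := by
  decide +kernel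

theorem Nr_fix {r : Perm X} (hr : r ∈ L0.G) (h1 : r a0 = a0) (h2 : r b0 = b0) {y : X}
    (hy : y ∈ Nr) : r y ∈ Nr := by
  rw [mem_Nr] at hy ⊢
  constructor
  · rw [← h1]; exact (Gam_smul hr).2 hy.1
  · rw [← h2]; exact (Gam_smul hr).2 hy.2

theorem c_Nr {y : X} (hy : y ∈ Nr) : c y ∈ Nr :=
  Nr_fix (le01 (le12 c_mem)) (fixA (le12 c_mem)) (fixB c_mem) hy

theorem Gam_near {y : X} (hy : y ∈ Nr) (z : X) : Gam y z ↔ bt (R y.val) z.val = true :=
  Gam_R (rix_near (mem_Nr_iff.1 hy)) z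

/-- The predicate of the near points on numbers. -/
def Nn (y : ℕ) : Prop := y < 4060 ∧ kidx y < 730

theorem Nn_iff {y : ℕ} (h : y < 4060) : Nn y ↔ toX y ∈ Nr := by
  rw [mem_Nr_iff, toX_val h]
  exact ⟨fun h1 => h1.2, fun h1 => ⟨h, h1⟩⟩

section

variable {τ : X → X} (h1 : ∀ y ∈ Nr, τ y ∈ Nr)
  (h3 : ∀ y ∈ Nr, ∀ z ∈ Nr, Gam (τ y) (τ z) ↔ Gam y z)
  (h4 : ∀ y ∈ Nr, τ (c y) = c (τ y))

include h1 h3 h4 in
theorem hypOf : Hyp R cc NM 4060 (fun n => (τ (toX n)).val) Nn := by
  have htoX : ∀ y, Nn y → toX y ∈ Nr := fun y hy => (Nn_iff hy.1).1 hy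
  have hval : ∀ y, Nn y → (toX y).val = y := fun y hy => toX_val hy.1
  refine ⟨fun y hy => hy.1, ?_, ?_, ?_, ?_, ?_⟩
  · intro y hy
    have h5 := h1 _ (htoX y hy)
    exact ⟨(τ (toX y)).2, mem_Nr_iff.1 h5⟩
  · intro y z hy hz
    apply Bool.eq_iff_iff.2
    have h5 := h3 _ (htoX y hy) _ (htoX z hz)
    rw [Gam_near (h1 _ (htoX y hy)), Gam_near (htoX y hy), hval y hy, hval z hz] at h5
    exact h5
  · intro y hy
    have h5 : toX (cc y) = c (toX y) := by
      apply Fin.ext
      have h6 := c_val (toX y)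
      rw [hval y hy] at h6
      rw [h6]
      apply toX_val
      rw [← h6]
      exact (c (toX y)).2
    show (τ (toX (cc y))).val = cc (τ (toX y)).val
    rw [h5, h4 _ (htoX y hy), c_val]
  · intro y hy
    have h5 := c_Nr (htoX y hy)
    have h6 := c_val (toX y)
    rw [hval y hy] at h6
    rw [mem_Nr_iff, h6] at h5
    refine ⟨?_, h5⟩
    rw [← h6]
    exact (c (toX y)).2
  · intro y hy
    have h5 := all_of_allR (by decide) nmChk y hy.1
    have e : Nat.blt (kidx y) 730 = true := Nat.ble_eq_true_of_le hy.2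
    rw [e] at h5
    exact h5

theorem kpt_near {y : ℕ} (hy : Nn y) : kpt (kidx y) = y := by
  have h := kpt_kidx (y := toX y) (by rw [toX_val hy.1]; have := hy.2; omega)
  rw [toX_val hy.1] at h
  have h2 := congrArg Fin.val h
  rw [toX_val hy.1, toX_val (kpt_lt (by have := hy.2; omega))] at h2
  exact h2

include h1 h3 h4 in
/-- The action on the near points is one of the assignments. -/
theorem exists_T : ∃ e, e < 80 ∧ ∀ y, Nn y → (τ (toX y)).val = T e y := by
  have H := hypOf h1 h3 h4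
  have hchk := dfsChk
  rw [rM_eq] at hchk
  obtain ⟨vals, h5, h6, -, h7⟩ := ext_sound H ordL [] [] hchk
    (fun p hp => by
      have h8 := allL_spec ordChk p hp
      rw [andB_eq_true] at h8
      exact ⟨Nat.le_of_ble_eq_true h8.1, Nat.le_of_ble_eq_true h8.2⟩)
    (fun p hp => by simp at hp) (fun p hp => by simp at hp)
  obtain ⟨e, he, h8⟩ := anyE_spec h5
  refine ⟨e, he, ?_⟩
  have h9 : ∀ p ∈ ordL, (τ (toX p.1)).val = T e p.1 := by
    intro p hp
    obtain ⟨q, hq, hq2⟩ := h7 p hp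
    have h10 : (τ (toX q.1)).val = q.2 := h6 q hq
    have h11 := Nat.eq_of_beq_eq_true (allL_spec h8 q hq)
    rw [← hq2, h10, h11]
  -- the powers of `c`
  have key : ∀ n y, pwT (kidx y) = n → Nn y → (τ (toX y)).val = T e y := by
    intro n
    induction n with
    | zero =>
      intro y hn hy
      have h10 := all_of_allR (by decide) pwAll (kidx y) hy.2
      unfold pwChk at h10
      rw [force_eq, kpt_near hy, hn] at h10
      obtain ⟨p, hp, h11⟩ := anyL_spec (show anyL (fun p => Nat.beq p.1 y) ordL = true from h10)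
      have h12 : p.1 = y := Nat.eq_of_beq_eq_true h11
      rw [← h12]
      exact h9 p hp
    | succ n ih =>
      intro y hn hy
      have h10 := all_of_allR (by decide) pwAll (kidx y) hy.2
      unfold pwChk at h10
      rw [force_eq, kpt_near hy, hn] at h10
      have h11 : andB (Nat.beq (Nat.succ (pwT (kidx (cc (cc (cc (cc y))))))) (n + 1))
        (Nat.beq (cc (cc (cc (cc (cc y))))) y) = true := h10
      rw [andB_eq_true] at h11
      have h12 : pwT (kidx (cc (cc (cc (cc y))))) = n := by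
        have := Nat.eq_of_beq_eq_true h11.1
        omega
      have h13 : cc (cc (cc (cc (cc y)))) = y := Nat.eq_of_beq_eq_true h11.2
      have hN := H.h4
      have hz : Nn (cc (cc (cc (cc y)))) := hN _ (hN _ (hN _ (hN _ hy)))
      have h14 := ih _ h12 hz
      have h15 : (τ (toX (cc (cc (cc (cc (cc y))))))).val = cc (τ (toX (cc (cc (cc (cc y)))))).val := H.h3 _ hz
      rw [h13, h14] at h15
      rw [h15]
      have h16 := all_of_allR (by decide) (allLt_spec tcChk e he) (kidx (cc (cc (cc (cc y))))) hz.2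
      rw [kpt_near hz, h13] at h16
      exact (Nat.eq_of_beq_eq_true h16).symm
  intro y hy
  exact key _ y rfl hy

end

/-! ### The good assignments -/

/-- The check of a good assignment. -/
noncomputable def goodChk (e : ℕ) : Bool :=
  allR (guard 730 (fun j => Nat.beq (walk (fun x l => F2 l x) (t0T (kpt j)) (goodW.getD e [])) (T e (kpt j)))) 10 0

theorem goodAll : allLt goodChk 20 = true := by decide +kernel

theorem goodK : ∀ e, e < 20 → ∀ l ∈ goodW.getD e [], l < 5 := by decide +kernel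

theorem good_case {τ : X → X} {e : ℕ} (he : e < 20) (hT : ∀ y, Nn y → (τ (toX y)).val = T e y) :
    ∃ k ∈ L1.G, k b0 = b0 ∧ ∀ y ∈ Nr, τ y = k (t0 y) := by
  have hk : ∀ l ∈ goodW.getD e [], l < L2.k := goodK e he
  have hm : ev L2.val (goodW.getD e []) ∈ L2.G := L2.ev_mem hk
  refine ⟨_, le12 hm, fixB hm, ?_⟩
  intro y hy
  apply Fin.ext
  have h1 := mem_Nr_iff.1 hy
  have h2 : Nn y.val := ⟨y.2, h1⟩
  have h3 := hT _ h2
  rw [toX_of_val] at h3
  rw [h3, L2.ev_apply hk, t0_val]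
  have h4 := all_of_allR (by decide) (allLt_spec goodAll e he) (kidx y.val) h1
  rw [kpt_near h2] at h4
  exact (Nat.eq_of_beq_eq_true h4).symm

/-! ### The bad assignments -/

/-- The check of a bad assignment. -/
noncomputable def badChk (e : ℕ) (D : List ℕ × ℕ × List (ℕ × ℕ)) : Bool :=
  andB (Nat.beq (walk (fun x l => F1 l x) 3849 D.1) (T e D.2.1))
  (andB (Nat.blt D.2.1 4060) (andB (Nat.blt (kidx D.2.1) 730) (andB (bt (R D.2.1) 2)
  (andB (allL (fun p => andB (Nat.blt p.1 4060) (andB (Nat.blt (kidx p.1) 730)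
      (andB (Nat.blt p.2 4060) (andB (Nat.blt (kidx p.2) 730)
        (Nat.beq (walk (fun x l => F1 l x) (T e p.1) D.1) (T e p.2)))))) D.2.2)
    (allR (guard 1024 (fun j => anyL (fun p =>
      !(bieq (bt (R p.2) 2) (bt (R p.1) (kpt (Nat.add 730 j))))) D.2.2)) 10 0)))))

theorem badAll : allLt (fun i => badChk (Nat.add 20 i) (badD.getD i ([], 0, []))) 60 = true := by
  decide +kernel

theorem badK : ∀ i, i < 60 → ∀ l ∈ (badD.getD i ([], 0, [])).1, l < 3 := by decide +kernel

theorem bad_case {τ : X → X} {i : ℕ} (hi : i < 60)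
    (hT : ∀ y, Nn y → (τ (toX y)).val = T (20 + i) y) : DD.Refuted τ := by
  have hk : ∀ l ∈ (badD.getD i ([], 0, [])).1, l < L1.k := badK i hi
  have hc := allLt_spec badAll i hi
  set Dt := badD.getD i ([], 0, []) with hDt
  set h : Perm X := ev L1.val Dt.1 with hh
  have hm : h ∈ L1.G := L1.ev_mem hk
  have hh_val : ∀ x : X, (h x).val = walk (fun x l => F1 l x) x.val Dt.1 := by
    intro x
    rw [hh, L1.ev_apply hk]
    rfl
  simp only [badChk, andB_eq_true] at hc
  obtain ⟨c1, c2, c3, c4, c5, c6⟩ := hc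
  have c1' := Nat.eq_of_beq_eq_true c1
  have c2' : Dt.2.1 < 4060 := Nat.le_of_ble_eq_true c2
  have c3' : kidx Dt.2.1 < 730 := Nat.le_of_ble_eq_true c3
  have hv : toX Dt.2.1 ∈ Nr := (Nn_iff c2').1 ⟨c2', c3'⟩
  refine ⟨h, hm, toX Dt.2.1, hv, ?_, ?_, ?_⟩
  · apply Fin.ext
    rw [hT _ ⟨c2', c3'⟩, hh_val]
    exact c1'
  · show Gam (toX Dt.2.1) d0
    rw [Gam_near hv, toX_val c2']
    exact c4
  · intro d' hd'
    obtain ⟨h1, h2⟩ := mem_D4.1 hd'
    have h3 := all_of_allR (by decide) c6 (kidx d'.val - 730) (by omega)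
    have h4 : Nat.add 730 (kidx d'.val - 730) = kidx d'.val := by
      show 730 + (kidx d'.val - 730) = kidx d'.val
      omega
    rw [h4] at h3
    obtain ⟨p, hp, h5⟩ := anyL_spec h3
    have h6 := allL_spec c5 p hp
    simp only [andB_eq_true] at h6
    obtain ⟨p1, p2, p3, p4, p5⟩ := h6
    have p1' : p.1 < 4060 := Nat.le_of_ble_eq_true p1
    have p2' : kidx p.1 < 730 := Nat.le_of_ble_eq_true p2
    have p3' : p.2 < 4060 := Nat.le_of_ble_eq_true p3
    have p4' : kidx p.2 < 730 := Nat.le_of_ble_eq_true p4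
    have hv1 : toX p.1 ∈ Nr := (Nn_iff p1').1 ⟨p1', p2'⟩
    have hv2 : toX p.2 ∈ Nr := (Nn_iff p3').1 ⟨p3', p4'⟩
    refine ⟨toX p.1, hv1, toX p.2, hv2, ?_, ?_⟩
    · apply Fin.ext
      rw [hh_val, hT _ ⟨p1', p2'⟩, hT _ ⟨p3', p4'⟩]
      exact Nat.eq_of_beq_eq_true p5
    · show ¬ (Gam (toX p.2) d0 ↔ Gam (toX p.1) d')
      rw [Gam_near hv2, Gam_near hv1, toX_val p1', toX_val p3']
      have h7 : kpt (kidx d'.val) = d'.val := by
        have := kpt_kidx h2
        have h8 := congrArg Fin.val this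
        rwa [toX_val (kpt_lt h2)] at h8
      rw [h7] at h5
      intro h8
      have h9 : bt (R p.2) d0.val = bt (R p.1) d'.val := Bool.eq_iff_iff.2 h8
      have h10 : bt (R p.2) 2 = bt (R p.1) d'.val := h9
      rw [h10, (bieq_eq_true (bt (R p.1) d'.val) (bt (R p.1) d'.val)).2 rfl] at h5
      exact absurd h5 (by simp)

theorem hRigid (τ : X → X) (h1 : ∀ y ∈ Nr, τ y ∈ Nr)
    (h3 : ∀ y ∈ Nr, ∀ z ∈ Nr, Gam (τ y) (τ z) ↔ Gam y z)
    (h4 : ∀ y ∈ Nr, τ (c y) = c (τ y)) :
    (∃ k ∈ L1.G, k b0 = b0 ∧ ∀ y ∈ Nr, τ y = k (t0 y)) ∨ DD.Refuted τ := by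
  obtain ⟨e, he, hT⟩ := exists_T h1 h3 h4
  by_cases h5 : e < 20
  · exact Or.inl (good_case h5 hT)
  · right
    have h6 : e = 20 + (e - 20) := by omega
    rw [h6] at hT
    exact bad_case (by omega) hT

end Cfsg.Agent.Lib.RuRec.Cc
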