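import Cfsg.Agent.Lib.RuRec.Ck2

/-!
# Rank three recognition of the Rudvalis group: the propagation of a block
-/

set_option autoImplicit false
set_option linter.unusedVariables false
set_option maxRecDepth 100000

namespace Cfsg.Agent.Lib.RuRec.Cc

open Equiv Cfsg.Agent.Lib.CosetCert Cfsg.Agent.Lib.CosetCert.D.Ru.Tbl Cfsg.Agent.Lib.TC.Core
  Cfsg.Agent.Lib.TC.Enc Cfsg.Agent.Lib.RuRec.Dfs Cfsg.Agent.Lib.RuRec.Tb

/-- The walk of a word of the stabiliser of `a0`. -/
noncomputable def wk (w : List ℕ) (z : ℕ) : ℕ := walk (fun x l => F1 l x) z w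

/-- Strict or. -/
noncomputable def orB (a b : Bool) : Bool := Bool.rec b true a

theorem orB_eq_true (a b : Bool) : orB a b = true ↔ a = true ∨ b = true := by
  cases a <;> simp [orB]

/-- The scan of the near points. -/
noncomputable def bld (Cr : ℕ) (w : List ℕ) (M : ℕ) (k : List (ℕ × Bool) → ℕ → Bool) (n : ℕ) :
    List (ℕ × Bool) → ℕ → Bool :=
  Nat.rec (motive := fun _ => List (ℕ × Bool) → ℕ → Bool) (fun W M' => k W M')
    (fun j ih W M' =>
      force (kpt j) fun z => force (wk w z) fun hz =>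
        Bool.rec (ih W (Nat.lor M' (Nat.shiftLeft 1 hz)))
          (force (R z) fun rz => Bool.rec (ih ((rz, false) :: W) M') (ih ((rz, true) :: W) M') (bt Cr hz))
          (bt M hz)) n

/-- A step of the propagation. -/
noncomputable def stepChk (Cr : ℕ) (s : List ℕ × ℕ) (M : ℕ) (K : ℕ → Bool) : Bool :=
  force (wk s.1 3849) fun x =>
    andB (bt M x) (andB (bt Cr x) (andB (Nat.beq (wk s.1 (t0T (kpt s.2))) 2580)
      (andB (Nat.blt 729 s.2) (andB (Nat.blt s.2 1754)
      (bld Cr s.1 M (fun W M2 => andB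
        (allR (guard 1024 (fun j => force (t0T (kpt (Nat.add 730 j))) fun t =>
          orB (Nat.beq (Nat.add 730 j) s.2) (anyL (fun p => !(bieq p.2 (bt p.1 t))) W))) 10 0)
        (K M2)) 730 [] M)))))

/-- The end of the propagation. -/
noncomputable def finalChk (M : ℕ) : Bool :=
  allR (guard 4060 (fun y => Bool.rec true (bt M y) (isO1 y))) 12 0

/-- The propagation. -/
noncomputable def propF (Cr : ℕ) (l : List (List ℕ × ℕ)) : ℕ → Bool :=
  List.rec (motive := fun _ => ℕ → Bool) finalChk (fun s _ ih M => stepChk Cr s M ih) l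

/-- The known points at the start. -/
noncomputable def M0 : ℕ := Nat.lor NM (Nat.shiftLeft 1 3849)

theorem propChk : propF (R 2580) pst M0 = true := by decide +kernel

theorem m0Chk : allR (guard 4060 (fun y => Bool.rec true (orB (Nat.blt (kidx y) 730) (Nat.beq y 3849)) (bt M0 y))) 12 0 = true := by
  decide +kernel

theorem cr_b0 : bt (R 2580) 3849 = true := by decide +kernel

theorem pstK : ∀ s ∈ pst, ∀ l ∈ s.1, l < 3 := by decide +kernel

theorem kpt730 : ∀ j, j < 730 → kidx (kpt j) < 730 := by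
  intro j hj
  rw [kidx_kpt (by omega)]
  exact hj

theorem bt_lor_shift {M M' hz y : ℕ} (h : bt (Nat.lor M' (Nat.shiftLeft 1 hz)) y = true) :
    bt M' y = true ∨ y = hz := by
  have h1 : Nat.lor M' (Nat.shiftLeft 1 hz) = M' ||| (2 ^ hz) := by
    have : Nat.shiftLeft 1 hz = 1 <<< hz := rfl
    rw [this, Nat.one_shiftLeft]; rfl
  rw [bt_eq, h1, Nat.testBit_or, Bool.or_eq_true, Nat.testBit_two_pow] at h
  rw [bt_eq]
  rcases h with h | h
  · exact Or.inl h
  · right
    simpa [eq_comm] using h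

/-- The invariant of the scan. -/
structure BldI (Cr : ℕ) (w : List ℕ) (M : ℕ) (W : List (ℕ × Bool)) (M' : ℕ) : Prop where
  hW : ∀ p ∈ W, ∃ j, j < 730 ∧ p.1 = R (kpt j) ∧ bt M (wk w (kpt j)) = true ∧ p.2 = bt Cr (wk w (kpt j))
  hM : ∀ y, bt M' y = true → bt M y = true ∨ ∃ j, j < 730 ∧ y = wk w (kpt j)

theorem bld_spec {Cr : ℕ} {w : List ℕ} {M : ℕ} {k : List (ℕ × Bool) → ℕ → Bool} {n : ℕ} (hn : n ≤ 730)
    {W : List (ℕ × Bool)} {M' : ℕ} (h : bld Cr w M k n W M' = true) (hI : BldI Cr w M W M') :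
    ∃ W2 M2, k W2 M2 = true ∧ BldI Cr w M W2 M2 := by
  induction n generalizing W M' with
  | zero => exact ⟨W, M', h, hI⟩
  | succ j ih =>
    have h0 : bld Cr w M k (j + 1) W M' =
      force (kpt j) fun z => force (wk w z) fun hz =>
        Bool.rec (bld Cr w M k j W (Nat.lor M' (Nat.shiftLeft 1 hz)))
          (force (R z) fun rz => Bool.rec (bld Cr w M k j ((rz, false) :: W) M') (bld Cr w M k j ((rz, true) :: W) M') (bt Cr hz))
          (bt M hz) := rfl
    rw [h0] at h
    simp only [force_eq] at h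
    have hj : j < 730 := by omega
    cases h1 : bt M (wk w (kpt j)) with
    | false =>
      rw [h1] at h
      refine ih (by omega) h ⟨hI.hW, ?_⟩
      intro y hy
      rcases bt_lor_shift (M := M) hy with h2 | h2
      · exact hI.hM y h2
      · exact Or.inr ⟨j, hj, h2⟩
    | true =>
      rw [h1] at h
      have h2 : (Bool.rec (bld Cr w M k j ((R (kpt j), false) :: W) M') (bld Cr w M k j ((R (kpt j), true) :: W) M')
        (bt Cr (wk w (kpt j))) : Bool) = true := h
      cases h3 : bt Cr (wk w (kpt j)) with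
      | false =>
        rw [h3] at h2
        refine ih (by omega) h2 ⟨?_, hI.hM⟩
        intro p hp
        rcases List.mem_cons.1 hp with rfl | hp
        · exact ⟨j, hj, rfl, h1, h3.symm⟩
        · exact hI.hW p hp
      | true =>
        rw [h3] at h2
        refine ih (by omega) h2 ⟨?_, hI.hM⟩
        intro p hp
        rcases List.mem_cons.1 hp with rfl | hp
        · exact ⟨j, hj, rfl, h1, h3.symm⟩
        · exact hI.hW p hp

section

variable {A : X → Prop}

/-- The points which are known. -/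
def Kn (A : X → Prop) (M : ℕ) : Prop :=
  ∀ y : X, bt M y.val = true → (A y ↔ bt (R 2580) y.val = true)

theorem Gam_Cr (y : X) : Gam y c0 ↔ bt (R 2580) y.val = true := by
  rw [Gam_comm, Gam_R rix_c0, c0_val]

theorem kpt_in {j : ℕ} (h : j < 730) : toX (kpt j) ∈ Nr := by
  rw [mem_Nr_iff, toX_val (kpt_lt (by omega)), kidx_kpt (by omega)]
  exact h

theorem R_kpt {j : ℕ} (h : j < 730) (y : X) : Gam (toX (kpt j)) y ↔ bt (R (kpt j)) y.val = true := by
  have := Gam_R (x := toX (kpt j)) (rix_near (mem_Nr_iff.1 (kpt_in h))) y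
  rwa [toX_val (kpt_lt (by omega))] at this

theorem step_spec
    (h3 : ∀ h ∈ L1.G, A (h b0) → ∃ d' ∈ DD.D4, ∀ z ∈ Nr, A (h z) ↔ Gam z (t0 d'))
    {s : List ℕ × ℕ} (hs : ∀ l ∈ s.1, l < 3) {M : ℕ} {K : ℕ → Bool} (hM : Kn A M)
    (h : stepChk (R 2580) s M K = true) : ∃ M2, Kn A M2 ∧ K M2 = true := by
  unfold stepChk at h
  simp only [force_eq, andB_eq_true] at h
  obtain ⟨c1, c2, c3, c4, c5, c6⟩ := h
  obtain ⟨W, M2, hk, hI⟩ := bld_spec (le_refl 730) c6 ⟨by simp, fun y hy => Or.inl hy⟩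
  rw [andB_eq_true] at hk
  obtain ⟨hk1, hk2⟩ := hk
  refine ⟨M2, ?_, hk2⟩
  have hk' : ∀ l ∈ s.1, l < L1.k := hs
  set h : Perm X := ev L1.val s.1 with hh
  have hm : h ∈ L1.G := L1.ev_mem hk'
  have hv : ∀ x : X, (h x).val = wk s.1 x.val := by
    intro x
    rw [hh, L1.ev_apply hk']
    rfl
  have hv' : ∀ j, j < 730 → (h (toX (kpt j))).val = wk s.1 (kpt j) := by
    intro j hj
    rw [hv, toX_val (kpt_lt (by omega))]
  -- the point `h b0` is in the set
  have hx : A (h b0) := by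
    have := hM (h b0) (by rw [hv]; exact c1)
    rw [this, hv]
    exact c2
  obtain ⟨d', hd', hd2⟩ := h3 h hm hx
  obtain ⟨hd3, hd4⟩ := mem_D4.1 hd'
  have e4 : 729 < s.2 := Nat.le_of_ble_eq_true c4
  have e5 : s.2 < 1754 := Nat.le_of_ble_eq_true c5
  -- the point `d'` is the one of the step
  have hd5 : kidx d'.val = s.2 := by
    have h6 := all_of_allR (by decide) hk1 (kidx d'.val - 730) (by omega)
    have h7 : Nat.add 730 (kidx d'.val - 730) = kidx d'.val := by
      show 730 + (kidx d'.val - 730) = kidx d'.val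
      omega
    rw [h7, orB_eq_true] at h6
    rcases h6 with h6 | h6
    · exact Nat.eq_of_beq_eq_true h6
    · exfalso
      obtain ⟨p, hp, h8⟩ := anyL_spec h6
      obtain ⟨j, hj, hp1, hp2, hp3⟩ := hI.hW p hp
      have h9 := hd2 _ (kpt_in hj)
      rw [R_kpt hj] at h9
      have h10 := hM (h (toX (kpt j))) (by rw [hv' j hj]; exact hp2)
      rw [h10, hv' j hj, ← hp3, ← hp1] at h9
      have h11 : (t0 d').val = t0T (kpt (kidx d'.val)) := by
        rw [t0_val]
        have := kpt_kidx hd4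
        have h12 := congrArg Fin.val this
        rw [toX_val (kpt_lt hd4)] at h12
        rw [h12]
      rw [h11] at h9
      have h12 : p.2 = bt p.1 (t0T (kpt (kidx d'.val))) := Bool.eq_iff_iff.2 h9
      rw [← h12, (bieq_eq_true p.2 p.2).2 rfl] at h8
      exact absurd h8 (by simp)
  -- the value of `h`
  have hc0 : h (t0 d') = c0 := by
    apply Fin.ext
    rw [hv, t0_val, c0_val]
    have := kpt_kidx hd4
    have h12 := congrArg Fin.val this
    rw [toX_val (kpt_lt hd4), hd5] at h12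
    rw [← h12]
    exact Nat.eq_of_beq_eq_true c3
  intro y hy
  rcases hI.hM y.val hy with h1 | ⟨j, hj, h1⟩
  · exact hM y h1
  · have h2 : y = h (toX (kpt j)) := Fin.ext (by rw [hv' j hj]; exact h1)
    rw [h2, hd2 _ (kpt_in hj), ← Gam_Cr, ← hc0, Gam_smul (le01 hm)]

theorem propF_spec
    (h3 : ∀ h ∈ L1.G, A (h b0) → ∃ d' ∈ DD.D4, ∀ z ∈ Nr, A (h z) ↔ Gam z (t0 d'))
    (l : List (List ℕ × ℕ)) (hl : ∀ s ∈ l, ∀ k ∈ s.1, k < 3) {M : ℕ} (hM : Kn A M)
    (h : propF (R 2580) l M = true) : ∃ M2, Kn A M2 ∧ finalChk M2 = true := by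
  induction l generalizing M with
  | nil => exact ⟨M, hM, h⟩
  | cons s l ih =>
    have h0 : propF (R 2580) (s :: l) M = stepChk (R 2580) s M (propF (R 2580) l) := rfl
    rw [h0] at h
    obtain ⟨M2, h1, h2⟩ := step_spec h3 (hl s (by simp)) hM h
    exact ih (fun s hs => hl s (by simp [hs])) h1 h2

end

theorem hProp (A : X → Prop) (h1 : ∀ y ∈ Nr, A y ↔ Gam y c0) (h2 : A b0)
    (h3 : ∀ h ∈ L1.G, A (h b0) → ∃ d' ∈ DD.D4, ∀ z ∈ Nr, A (h z) ↔ Gam z (t0 d')) :
    ∀ y, (∃ q ∈ L1.G, q b0 = y) → (A y ↔ Gam y c0) := by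
  have hM0 : Kn A M0 := by
    intro y hy
    have h4 := all_of_allR (by decide) m0Chk y.val y.2
    rw [hy, orB_eq_true] at h4
    rcases h4 with h4 | h4
    · have h5 : y ∈ Nr := mem_Nr_iff.2 (Nat.le_of_ble_eq_true h4)
      rw [h1 y h5, Gam_Cr]
    · have h5 : y = b0 := Fin.ext (Nat.eq_of_beq_eq_true h4)
      rw [h5]
      exact ⟨fun _ => cr_b0, fun _ => h2⟩
  obtain ⟨M, hM, hf⟩ := propF_spec h3 pst pstK hM0 propChk
  intro y hy
  have h4 := all_of_allR (by decide) hf y.val y.2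
  rw [isO1_iff.2 hy] at h4
  rw [hM y h4, Gam_Cr]

end Cfsg.Agent.Lib.RuRec.Cc
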