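import Cfsg.Agent.Lib.RuRec.Act

/-!
# Sylow conjugacy in the form used for the recognition of the Rudvalis group
-/

set_option autoImplicit false

namespace Cfsg.Agent.Lib.RuRec

open Equiv

/-- Two subgroups of the full `p`-part are conjugate. -/
theorem sylow_conj {G : Type*} [Group G] [Finite G] (p n m : ℕ) [hp : Fact p.Prime]
    (hG : Nat.card G = p ^ n * m) (hm : ¬ p ∣ m) (A B : Subgroup G)
    (hA : Nat.card A = p ^ n) (hB : Nat.card B = p ^ n) :
    ∃ g : G, ∀ x ∈ A, g * x * g⁻¹ ∈ B := by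
  have hm0 : m ≠ 0 := by
    rintro rfl
    exact hm (dvd_zero p)
  have hf : (Nat.card G).factorization p = n := by
    rw [hG, Nat.factorization_mul (pow_ne_zero _ hp.out.ne_zero) hm0]
    simp [hp.out.factorization_self, Nat.factorization_eq_zero_of_not_dvd hm]
  let PA : Sylow p G := Sylow.ofCard A (by rw [hA, hf])
  let PB : Sylow p G := Sylow.ofCard B (by rw [hB, hf])
  obtain ⟨g, hg⟩ := MulAction.exists_smul_eq G PA PB
  refine ⟨g, fun x hx => ?_⟩
  have h1 : g * x * g⁻¹ ∈ ((g • PA : Sylow p G) : Subgroup G) := by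
    rw [Sylow.coe_subgroup_smul]
    rw [Subgroup.mem_pointwise_smul_iff_inv_smul_mem]
    have hPA : ((PA : Sylow p G) : Subgroup G) = A := rfl
    rw [hPA]
    simpa [MulAut.smul_def, mul_assoc] using hx
  rw [hg] at h1
  exact h1

end Cfsg.Agent.Lib.RuRec
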