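import Cfsg.Agent.Lib.RuRec.Ck2
import Cfsg.Agent.Lib.RuRec.Syl

/-!
# Rank three recognition of the Rudvalis group: the subgroups of index `1755`
-/

set_option autoImplicit false
set_option linter.unusedVariables false
set_option maxRecDepth 100000

namespace Cfsg.Agent.Lib.RuRec.Cc

open Equiv Cfsg.Agent.Lib.CosetCert Cfsg.Agent.Lib.CosetCert.D.Ru.Tbl Cfsg.Agent.Lib.TC.Core
  Cfsg.Agent.Lib.TC.Enc Cfsg.Agent.Lib.RuRec.Dfs Cfsg.Agent.Lib.RuRec.Tb

/-- The images of a point under the words. -/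
noncomputable def imgs (y : ℕ) : List ℕ := wT.map (fun w => walk (fun x l => F2 l x) y w)

theorem imgsChk : allR (guard 4060 (fun y => Bool.rec true
    (Bool.rec (Bool.rec (Bool.rec (Nat.ble 5 (imgs y).dedup.length) true (Nat.beq y 1041)) true (Nat.beq y 11))
      true (Nat.beq y 3849)) (isO1 y))) 12 0 = true := by
  decide +kernel

theorem wTk : ∀ w ∈ wT, ∀ l ∈ w, l < 5 := by decide +kernel

theorem wTfix : ∀ w ∈ wT, walk (fun x l => F2 l x) 11 w = 11 := by decide +kernel

/-- The point fixed by the words. -/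
def x1 : X := ⟨11, by decide⟩

/-- The point fixed by the words. -/
def x2 : X := ⟨1041, by decide⟩

/-! ### The orbit of `x1` -/

theorem c0Chk : allLt (fun l => allLt (fun j => Nat.blt (kidx (F2 l (kpt j))) 10) 10) 5 = true := by decide +kernel

theorem kpt0 : kpt 0 = 11 := by decide +kernel

theorem C0_pres : ∀ g ∈ L2.G, ∀ y : X, kidx y.val < 10 ↔ kidx (g y).val < 10 := by
  have hl : ∀ l, l < 5 → ∀ y : X, kidx y.val < 10 → kidx (L2.val l y).val < 10 := by
    intro l hl y hy
    have h1 := allLt_spec (allLt_spec c0Chk l hl) (kidx y.val) hy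
    have h2 := kpt_kidx (y := y) (by omega)
    have h3 := congrArg Fin.val h2
    rw [toX_val (kpt_lt (by omega))] at h3
    rw [h3] at h1
    rw [L2.val_apply hl]
    exact Nat.le_of_ble_eq_true h1
  intro g hg
  induction hg using Subgroup.closure_induction with
  | mem g h =>
    obtain ⟨l, hl1, rfl⟩ := h
    intro y
    have hl2 : l < 5 := hl1
    refine ⟨hl l hl2 y, fun h => ?_⟩
    have h1 := hl _ (L2.inv_lt l hl2) _ h
    rw [L2.val_inv hl2] at h1
    simpa using h1
  | one => intro y; rfl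
  | mul g1 g2 _ _ h1 h2 =>
    intro y
    rw [h2 y, h1 (g2 y)]
    rfl
  | inv g _ h =>
    intro y
    rw [h (g⁻¹ y)]
    simp

theorem reach : ∀ j, j < 10 → ∃ g ∈ L2.G, g x1 = toX (kpt j) := by
  intro j
  induction j using Nat.strong_induction_on with
  | _ j ih =>
    intro hj
    rcases Nat.eq_zero_or_pos j with rfl | h0
    · refine ⟨1, L2.G.one_mem, Fin.ext ?_⟩
      rw [toX_val (kpt_lt (by omega)), kpt0]
      rfl
    · have hj2 : j < 1754 := by omega
      have h1 := all_of_allR (by decide) forAll j hj2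
      unfold forChk at h1
      have h2 : rootI (cls j) = 0 := by
        have : cls j = 0 := by
          unfold cls
          rw [if_pos hj]
        rw [this]
        rfl
      have h3 : Nat.beq (rootI (cls j)) j = false := by
        rw [h2]
        cases h4 : Nat.beq 0 j
        · rfl
        · have := Nat.eq_of_beq_eq_true h4; omega
      rw [h3] at h1
      have h4 : andB (Nat.blt (kp j) j) (andB (Nat.blt (kl j) 5) (andB (Nat.blt 0 1)
        (Nat.beq (F2 (kl j) (kpt (kp j))) (kpt j)))) = true := h1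
      simp only [andB_eq_true] at h4
      obtain ⟨h5, h6, -, h7⟩ := h4
      have h5' : kp j < j := Nat.le_of_ble_eq_true h5
      have h6' : kl j < 5 := Nat.le_of_ble_eq_true h6
      obtain ⟨g, hg, h8⟩ := ih _ h5' (by omega)
      refine ⟨L2.val (kl j) * g, L2.G.mul_mem (L2.val_mem h6') hg, Fin.ext ?_⟩
      rw [Perm.mul_apply, h8, L2.val_apply h6', toX_val (kpt_lt (by omega)), toX_val (kpt_lt hj2)]
      exact Nat.eq_of_beq_eq_true h7

theorem orbit_x1 : (MulAction.orbit L2.G x1).ncard = 10 := by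
  classical
  have h1 : MulAction.orbit L2.G x1 =
      (((Finset.range 10).image (fun j => toX (kpt j)) : Finset X) : Set X) := by
    ext y
    simp only [Finset.coe_image, Set.mem_image, Finset.mem_coe, Finset.mem_range]
    constructor
    · rintro ⟨g, rfl⟩
      have h2 : kidx x1.val < 10 := by decide +kernel
      have h3 := (C0_pres g.1 g.2 x1).1 h2
      refine ⟨_, h3, ?_⟩
      exact kpt_kidx (by omega)
    · rintro ⟨j, hj, rfl⟩
      obtain ⟨g, hg, h2⟩ := reach j hj
      exact ⟨⟨g, hg⟩, h2⟩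
  rw [h1, Set.ncard_coe_finset, Finset.card_image_of_injOn, Finset.card_range]
  intro i hi j hj h
  simp only [Finset.coe_range, Set.mem_Iio] at hi hj
  have h2 := congrArg Fin.val h
  simp only at h2
  rw [toX_val (kpt_lt (by omega)), toX_val (kpt_lt (by omega))] at h2
  rw [← kidx_kpt (show i < 1754 by omega), ← kidx_kpt (show j < 1754 by omega), h2]

theorem card_T1 : Nat.card (MulAction.stabilizer L2.G x1) = 2048 := by
  have h1 := MulAction.index_stabilizer L2.G x1
  have h2 := Subgroup.card_mul_index (MulAction.stabilizer L2.G x1)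
  rw [h1, orbit_x1, D.Ru.Final.card2] at h2
  omega

/-! ### Sylow subgroups -/

theorem sylow_in {G : Type*} [Group G] [Finite G] (K : Subgroup G) (hK : Nat.card K = 20480) :
    ∃ S : Subgroup G, S ≤ K ∧ Nat.card S = 4096 := by
  haveI : Fact (Nat.Prime 2) := ⟨Nat.prime_two⟩
  obtain ⟨P, hP⟩ := Sylow.exists_subgroup_card_pow_prime (G := K) 2 (n := 12)
    (by rw [hK]; norm_num)
  refine ⟨P.map K.subtype, Subgroup.map_subtype_le _, ?_⟩
  rw [Subgroup.card_map_of_injective K.subtype_injective, hP]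
  norm_num

theorem sylow_card {G : Type*} [Group G] [Finite G] (p n m : ℕ) [hp : Fact p.Prime]
    (hG : Nat.card G = p ^ n * m) (hm : ¬ p ∣ m) (P : Sylow p G) : Nat.card P = p ^ n := by
  have hm0 : m ≠ 0 := by
    rintro rfl
    exact hm (dvd_zero p)
  have hf : (Nat.card G).factorization p = n := by
    rw [hG, Nat.factorization_mul (pow_ne_zero _ hp.out.ne_zero) hm0]
    simp [hp.out.factorization_self, Nat.factorization_eq_zero_of_not_dvd hm]
  rw [P.card_eq_multiplicity, hf]

theorem core (K1 : Subgroup (Perm X)) (h1 : K1 ≤ L1.G) (hc : Nat.card K1 = 20480)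
    (S1 : Subgroup (Perm X)) (hS1 : S1 ≤ K1) (hS2 : S1 ≤ L2.G) (hS3 : Nat.card S1 = 4096) :
    K1 = L2.G := by
  classical
  haveI : Fact (Nat.Prime 2) := ⟨Nat.prime_two⟩
  -- the stabiliser of `x1` lies in a conjugate of `S1`
  have hpg : IsPGroup 2 (MulAction.stabilizer L2.G x1) :=
    IsPGroup.of_card (n := 11) (by rw [card_T1]; norm_num)
  obtain ⟨P, hP⟩ := hpg.exists_le_sylow
  have hPc : Nat.card P = 2 ^ 12 :=
    sylow_card (G := L2.G) 2 12 5 (by rw [D.Ru.Final.card2]; norm_num) (by norm_num) P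
  have hS1c : Nat.card (S1.subgroupOf L2.G) = 2 ^ 12 := by
    rw [Nat.card_congr (Subgroup.subgroupOfEquivOfLe hS2).toEquiv, hS3]
    norm_num
  obtain ⟨g2, hg2⟩ := sylow_conj (G := L2.G) 2 12 5 (by rw [D.Ru.Final.card2]; norm_num) (by norm_num)
    (P : Subgroup L2.G) _ hPc hS1c
  set g : Perm X := g2.1 with hg
  have hgm : g ∈ L2.G := g2.2
  have hgb : g⁻¹ b0 = b0 := fixB (L2.G.inv_mem hgm)
  have hconj : ∀ w ∈ L2.G, w x1 = x1 → g * w * g⁻¹ ∈ K1 := by
    intro w hw hwx
    have h3 : (⟨w, hw⟩ : L2.G) ∈ MulAction.stabilizer L2.G x1 := hwx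
    have h4 := hg2 _ (hP h3)
    rw [Subgroup.mem_subgroupOf] at h4
    exact hS1 h4
  -- the orbit
  have hfi : Finite K1 := inferInstance
  have hi1 := MulAction.index_stabilizer K1 b0
  have hi2 := Subgroup.card_mul_index (MulAction.stabilizer K1 b0)
  have hle : S1.subgroupOf K1 ≤ MulAction.stabilizer K1 b0 := by
    intro x hx
    rw [Subgroup.mem_subgroupOf] at hx
    exact fixB (hS2 hx)
  have hdvd := Subgroup.card_dvd_of_le hle
  rw [Nat.card_congr (Subgroup.subgroupOfEquivOfLe hS1).toEquiv, hS3] at hdvd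
  obtain ⟨t, ht⟩ := hdvd
  rw [hc, ht] at hi2
  have hi3 : t * (MulAction.stabilizer K1 b0).index = 5 := by
    have : 4096 * (t * (MulAction.stabilizer K1 b0).index) = 4096 * 5 := by
      rw [← mul_assoc, hi2]
    exact Nat.eq_of_mul_eq_mul_left (by norm_num) this
  have hi4 : (MulAction.stabilizer K1 b0).index ∣ 5 := ⟨t, by rw [mul_comm]; exact hi3.symm⟩
  have hi5 : (MulAction.stabilizer K1 b0).index = 1 ∨ (MulAction.stabilizer K1 b0).index = 5 :=
    (Nat.dvd_prime (by norm_num)).1 hi4
  rcases hi5 with hi5 | hi5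
  · -- the orbit is trivial
    rw [hi5] at hi1
    have hb : b0 ∈ MulAction.orbit K1 b0 := MulAction.mem_orbit_self b0
    obtain ⟨a, ha⟩ := Set.ncard_eq_one.1 hi1.symm
    have h5 : ∀ k ∈ K1, k b0 = b0 := by
      intro k hk
      have h6 : k b0 ∈ MulAction.orbit K1 b0 := ⟨⟨k, hk⟩, rfl⟩
      rw [ha] at h6 hb
      rw [Set.mem_singleton_iff] at h6 hb
      rw [h6, hb]
    have hle2 : K1 ≤ L2.G := fun k hk => stabB (h1 hk) (h5 k hk)
    exact Subgroup.eq_of_le_of_card_ge hle2 (by rw [hc, D.Ru.Final.card2])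
  · -- the orbit has five points
    exfalso
    rw [hi5] at hi1
    set Om : Set X := (fun y => g⁻¹ y) '' MulAction.orbit K1 b0 with hOm
    have hinjO : Set.InjOn (fun y => g⁻¹ y) (MulAction.orbit K1 b0) := fun a _ b _ h =>
      (g⁻¹).injective h
    have hOmc : Om.ncard = 5 := by
      rw [hOm, hinjO.ncard_image, ← hi1]
    have hmem : ∀ y, y ∈ Om ↔ ∃ k ∈ K1, g⁻¹ (k b0) = y := by
      intro y
      constructor
      · rintro ⟨_, ⟨k, rfl⟩, rfl⟩
        exact ⟨k.1, k.2, rfl⟩
      · rintro ⟨k, hk, rfl⟩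
        exact ⟨_, ⟨⟨k, hk⟩, rfl⟩, rfl⟩
    have hb : b0 ∈ Om := (hmem _).2 ⟨1, K1.one_mem, by simpa using hgb⟩
    -- a point which is not fixed
    have h3 : ({b0, x1, x2} : Set X).ncard < Om.ncard := by
      rw [hOmc]
      have h4 : ({b0, x1, x2} : Set X).ncard ≤ 3 := by
        have := Set.ncard_insert_le b0 ({x1, x2} : Set X)
        have h5 := Set.ncard_insert_le x1 ({x2} : Set X)
        rw [Set.ncard_singleton] at h5
        omega
      omega
    obtain ⟨y, hy, hy2⟩ := Set.exists_mem_notMem_of_ncard_lt_ncard h3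
    simp only [Set.mem_insert_iff, Set.mem_singleton_iff, not_or] at hy2
    obtain ⟨hy3, hy4, hy5⟩ := hy2
    obtain ⟨k, hk, hky⟩ := (hmem y).1 hy
    -- the point is in the orbit of `b0`
    have hyO : isO1 y.val = true := by
      apply isO1_iff.2
      refine ⟨g⁻¹ * k, L1.G.mul_mem (L1.G.inv_mem (le12 hgm)) (h1 hk), ?_⟩
      rw [Perm.mul_apply, hky]
    have hchk := all_of_allR (by decide) imgsChk y.val y.2
    rw [hyO] at hchk
    have e1 : Nat.beq y.val 3849 = false := by
      cases h4 : Nat.beq y.val 3849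
      · rfl
      · exact absurd (Fin.ext (Nat.eq_of_beq_eq_true h4)) hy3
    have e2 : Nat.beq y.val 11 = false := by
      cases h4 : Nat.beq y.val 11
      · rfl
      · exact absurd (Fin.ext (Nat.eq_of_beq_eq_true h4)) hy4
    have e3 : Nat.beq y.val 1041 = false := by
      cases h4 : Nat.beq y.val 1041
      · rfl
      · exact absurd (Fin.ext (Nat.eq_of_beq_eq_true h4)) hy5
    have hchk2 : Nat.ble 5 (imgs y.val).dedup.length = true := by
      have h6 : (Bool.rec (Bool.rec (Bool.rec (Nat.ble 5 (imgs y.val).dedup.length) true (Nat.beq y.val 1041))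
        true (Nat.beq y.val 11)) true (Nat.beq y.val 3849) : Bool) = true := hchk
      rw [e1, e2, e3] at h6
      exact h6
    have hchk3 : 5 ≤ (imgs y.val).toFinset.card := by
      rw [List.card_toFinset]
      exact Nat.le_of_ble_eq_true hchk2
    -- all the images lie in the orbit
    have himg : ∀ n ∈ imgs y.val, n < 4060 ∧ toX n ∈ Om ∧ toX n ≠ b0 := by
      intro n hn
      obtain ⟨w, hw, rfl⟩ := List.mem_map.1 hn
      have hk5 : ∀ l ∈ w, l < L2.k := wTk w hw
      have hwm : ev L2.val w ∈ L2.G := L2.ev_mem hk5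
      have hv : (ev L2.val w y).val = walk (fun x l => F2 l x) y.val w := by
        rw [L2.ev_apply hk5]
        rfl
      have hfx : ev L2.val w x1 = x1 := by
        apply Fin.ext
        rw [L2.ev_apply hk5]
        exact wTfix w hw
      have hlt : walk (fun x l => F2 l x) y.val w < 4060 := by
        rw [← hv]
        exact (ev L2.val w y).2
      have hto : toX (walk (fun x l => F2 l x) y.val w) = ev L2.val w y := by
        rw [← hv]
        exact toX_of_val _
      refine ⟨hlt, ?_, ?_⟩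
      · rw [hto, hmem]
        refine ⟨g * ev L2.val w * g⁻¹ * k, K1.mul_mem (hconj _ hwm hfx) hk, ?_⟩
        rw [← hky]
        simp
      · rw [hto]
        intro h6
        have h7 := fixB hwm
        exact hy3 ((ev L2.val w).injective (h6.trans h7.symm))
    -- the count
    have hsub : ((((imgs y.val).toFinset.image toX : Finset X) : Set X)) ⊆ Om \ {b0} := by
      intro z hz
      simp only [Finset.coe_image, Set.mem_image, Finset.mem_coe, List.mem_toFinset] at hz
      obtain ⟨n, hn, rfl⟩ := hz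
      obtain ⟨h6, h7, h8⟩ := himg n hn
      exact ⟨h7, h8⟩
    have hcard1 := Set.ncard_le_ncard hsub (Set.toFinite _)
    rw [Set.ncard_coe_finset, Finset.card_image_of_injOn] at hcard1
    · have hcard2 : (Om \ {b0}).ncard = 4 := by
        have := Set.ncard_diff_singleton_add_one hb (Set.toFinite _)
        omega
      omega
    · intro a ha a' ha' he
      simp only [Finset.mem_coe, List.mem_toFinset] at ha ha'
      have h6 := congrArg Fin.val he
      rwa [toX_val (himg a ha).1, toX_val (himg a' ha').1] at h6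

theorem card_L1 : Nat.card L1.G = 2 ^ 12 * 8775 := by
  rw [D.Ru.Final.card1]
  norm_num

/-- The subgroups of order `20480` of the stabiliser are conjugate. -/
theorem hK (K' : Subgroup (Perm X)) (hle : K' ≤ L1.G) (hc : Nat.card K' = 20480) :
    ∃ x ∈ L1.G, ∀ q ∈ L1.G, q ∈ K' ↔ (x * q * x⁻¹) b0 = b0 := by
  classical
  haveI : Fact (Nat.Prime 2) := ⟨Nat.prime_two⟩
  have hc1 : Nat.card (K'.subgroupOf L1.G) = 20480 := by
    rw [Nat.card_congr (Subgroup.subgroupOfEquivOfLe hle).toEquiv, hc]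
  have hc2 : Nat.card (L2.G.subgroupOf L1.G) = 20480 := by
    rw [Nat.card_congr (Subgroup.subgroupOfEquivOfLe le12).toEquiv, D.Ru.Final.card2]
  obtain ⟨A, hA1, hA2⟩ := sylow_in _ hc1
  obtain ⟨B, hB1, hB2⟩ := sylow_in _ hc2
  obtain ⟨g, hg⟩ := sylow_conj (G := L1.G) 2 12 8775 card_L1 (by norm_num) A B
    (by rw [hA2]; norm_num) (by rw [hB2]; norm_num)
  set x : Perm X := g.1 with hx
  have hxm : x ∈ L1.G := g.2
  -- the conjugate
  let φ : Perm X →* Perm X := (MulAut.conj x).toMonoidHom
  have hφ : ∀ q, φ q = x * q * x⁻¹ := fun q => rfl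
  have hφi : Function.Injective φ := (MulAut.conj x).injective
  have h1 : K'.map φ ≤ L1.G := by
    rintro _ ⟨q, hq, rfl⟩
    rw [hφ]
    exact L1.G.mul_mem (L1.G.mul_mem hxm (hle hq)) (L1.G.inv_mem hxm)
  have h2 : Nat.card (K'.map φ) = 20480 := by
    rw [Subgroup.card_map_of_injective hφi, hc]
  -- the image of `A`
  let S0 : Subgroup (Perm X) := (A.map L1.G.subtype).map φ
  have hS1 : S0 ≤ K'.map φ := by
    rintro _ ⟨_, ⟨a, ha, rfl⟩, rfl⟩
    have := hA1 ha
    rw [Subgroup.mem_subgroupOf] at this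
    exact ⟨_, this, rfl⟩
  have hS2 : S0 ≤ L2.G := by
    rintro _ ⟨_, ⟨a, ha, rfl⟩, rfl⟩
    have h3 := hB1 (hg a ha)
    rw [Subgroup.mem_subgroupOf] at h3
    exact h3
  have hS3 : Nat.card S0 = 4096 := by
    rw [Subgroup.card_map_of_injective hφi,
      Subgroup.card_map_of_injective L1.G.subtype_injective, hA2]
  have h3 := core _ h1 h2 S0 hS1 hS2 hS3
  refine ⟨x, hxm, fun q hq => ?_⟩
  have h4 : q ∈ K' ↔ x * q * x⁻¹ ∈ L2.G := by
    rw [← h3]
    constructor
    · intro h5
      exact ⟨q, h5, rfl⟩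
    · rintro ⟨q', h5, h6⟩
      rw [hφi (h6.trans (hφ q).symm)] at h5
      exact h5
  rw [h4]
  constructor
  · exact fixB
  · intro h5
    exact stabB (L1.G.mul_mem (L1.G.mul_mem hxm hq) (L1.G.inv_mem hxm)) h5

end Cfsg.Agent.Lib.RuRec.Cc
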