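import Cfsg.Agent.Lib.RuRec.Syl

/-!
# Rank three recognition of the Rudvalis group: the counting of the rank three graph
-/

set_option autoImplicit false
set_option linter.unusedSectionVars false
set_option linter.unusedVariables false

namespace Cfsg.Agent.Lib.RuRec

open Equiv
open scoped Classical

variable {Ω : Type*} [Fintype Ω]
variable {G : Subgroup (Perm Ω)} {a b c : Ω}

/-- A set as a finset. -/
noncomputable def fin (s : Set Ω) : Finset Ω := Finset.univ.filter (fun x => x ∈ s)

theorem mem_fin {s : Set Ω} {x : Ω} : x ∈ fin s ↔ x ∈ s := by simp [fin]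

theorem ncard_eq_fin (s : Set Ω) : s.ncard = (fin s).card := by
  have : s = ((fin s : Finset Ω) : Set Ω) := by
    ext x
    simp [fin]
  conv_lhs => rw [this]
  exact Set.ncard_coe_finset _

/-- Neighbours of `x` in the set `s`. -/
noncomputable def nbrsIn (G : Subgroup (Perm Ω)) (a b x : Ω) (s : Set Ω) : Finset Ω :=
  (fin s).filter (fun y => Adj G a b x y)

theorem card_nbrsIn_smul {g : Perm Ω} (hg : g ∈ G) (s : Set Ω) (hs : ∀ y, g y ∈ s ↔ y ∈ s) (x : Ω) :
    (nbrsIn G a b (g x) s).card = (nbrsIn G a b x s).card := by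
  refine Finset.card_bij' (fun y _ => g⁻¹ y) (fun y _ => g y) ?_ ?_ ?_ ?_
  · intro y hy
    simp only [nbrsIn, Finset.mem_filter, mem_fin] at hy ⊢
    have h1 : g (g⁻¹ y) = y := by simp
    refine ⟨(hs _).1 (by rw [h1]; exact hy.1), ?_⟩
    rw [← adj_smul_iff hg, h1]
    exact hy.2
  · intro y hy
    simp only [nbrsIn, Finset.mem_filter, mem_fin] at hy ⊢
    exact ⟨(hs _).2 hy.1, (adj_smul_iff hg).2 hy.2⟩
  · intro y _; simp
  · intro y _; simp

theorem Orb_invariant {g : Perm Ω} (hg : g ∈ G) (hga : g a = a) (x y : Ω) :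
    g y ∈ Orb G a x ↔ y ∈ Orb G a x := by
  constructor
  · intro h
    rw [← Orb_eq_of_mem h] 
    have hg' : g⁻¹ a = a := by
      rw [Perm.inv_eq_iff_eq]
      exact hga.symm
    refine ⟨g⁻¹, G.inv_mem hg, hg', by simp⟩
  · intro h
    rw [← Orb_eq_of_mem h]
    exact ⟨g, hg, hga, rfl⟩

/-- The rank three count. -/
theorem Orbits.count (O : Orbits G a b c) {t : Perm Ω} (ht : t ∈ G) (hab : t a = b) (hba : t b = a) :
    1755 * (1754 - (nbrsIn G a b b (Orb G a b)).card) =
      2304 * (nbrsIn G a b c (Orb G a b)).card ∧ (nbrsIn G a b b (Orb G a b)).card ≤ 1754 := by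
  set A := Orb G a b with hA
  set B := Orb G a c with hB
  have hsym : ∀ {x y}, Adj G a b x y → Adj G a b y x := fun h => h.symm_of_swap ht hab hba
  -- the neighbours of a point of `A`
  have hpart : ∀ x ∈ A, 1 + (nbrsIn G a b x A).card + (nbrsIn G a b x B).card = 1755 := by
    intro x hx
    have h1 : (nbrs G a b x).card = 1755 := by
      rw [card_nbrs_of_trans O.htr, O.hb]
    have h2 : nbrs G a b x = {a} ∪ (nbrsIn G a b x A ∪ nbrsIn G a b x B) := by
      ext y
      simp only [nbrs, nbrsIn, Finset.mem_filter, Finset.mem_univ, true_and, Finset.mem_union,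
        Finset.mem_singleton, mem_fin]
      constructor
      · intro h
        rcases O.cover y with h3 | h3 | h3
        · exact Or.inl h3
        · exact Or.inr (Or.inl ⟨h3, h⟩)
        · exact Or.inr (Or.inr ⟨h3, h⟩)
      · rintro (h0 | h | h)
        · rw [h0]
          exact hsym (show Adj G a b a x from hx)
        · exact h.2
        · exact h.2
    have h3 : Disjoint (nbrsIn G a b x A) (nbrsIn G a b x B) := by
      rw [Finset.disjoint_left]
      intro y hy hy'
      simp only [nbrsIn, Finset.mem_filter, mem_fin] at hy hy'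
      exact O.disj hy.1 hy'.1
    have h4 : Disjoint ({a} : Finset Ω) (nbrsIn G a b x A ∪ nbrsIn G a b x B) := by
      rw [Finset.disjoint_singleton_left]
      simp only [nbrsIn, Finset.mem_union, Finset.mem_filter, mem_fin, not_or]
      exact ⟨fun h => O.a_not_b h.1, fun h => O.a_not_c h.1⟩
    rw [h2, Finset.card_union_of_disjoint h4, Finset.card_union_of_disjoint h3, Finset.card_singleton] at h1
    omega
  -- the invariants
  have hAinv : ∀ x ∈ A, (nbrsIn G a b x A).card = (nbrsIn G a b b A).card := by
    rintro x ⟨g, hg, hga, rfl⟩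
    exact card_nbrsIn_smul hg A (Orb_invariant hg hga b) b
  have hBinv : ∀ y ∈ B, (nbrsIn G a b y A).card = (nbrsIn G a b c A).card := by
    rintro y ⟨g, hg, hga, rfl⟩
    exact card_nbrsIn_smul hg A (Orb_invariant hg hga b) c
  have hb0 : b ∈ A := mem_Orb_self b
  have h1 := hpart b hb0
  refine ⟨?_, by omega⟩
  -- double count
  have hdc : ∑ x ∈ fin A, ((fin B).bipartiteAbove (fun x y => Adj G a b x y) x).card =
      ∑ y ∈ fin B, ((fin A).bipartiteBelow (fun x y => Adj G a b x y) y).card :=
    Finset.sum_card_bipartiteAbove_eq_sum_card_bipartiteBelow _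
  have hL : ∀ x ∈ fin A, ((fin B).bipartiteAbove (fun x y => Adj G a b x y) x).card =
      1754 - (nbrsIn G a b b A).card := by
    intro x hx
    have hx' := mem_fin.1 hx
    have h2 := hpart x hx'
    have h3 := hAinv x hx'
    have h4 : ((fin B).bipartiteAbove (fun x y => Adj G a b x y) x) = nbrsIn G a b x B := rfl
    rw [h4]
    omega
  have hR : ∀ y ∈ fin B, ((fin A).bipartiteBelow (fun x y => Adj G a b x y) y).card =
      (nbrsIn G a b c A).card := by
    intro y hy
    have hy' := mem_fin.1 hy
    rw [← hBinv y hy']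
    congr 1
    ext x
    simp only [Finset.bipartiteBelow, nbrsIn, Finset.mem_filter]
    exact ⟨fun h => ⟨h.1, hsym h.2⟩, fun h => ⟨h.1, hsym h.2⟩⟩
  rw [Finset.sum_congr rfl hL, Finset.sum_congr rfl hR, Finset.sum_const, Finset.sum_const,
    ← ncard_eq_fin, ← ncard_eq_fin, O.hb, O.hc] at hdc
  simpa using hdc

/-- The first alternative of the counting is impossible. -/
theorem Orbits.not_clique (O : Orbits G a b c) {t : Perm Ω} (ht : t ∈ G) (hab : t a = b)
    (hba : t b = a) (h : ∀ x ∈ Orb G a b, x ≠ b → Adj G a b b x) : False := by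
  have hsym : ∀ {x y}, Adj G a b x y → Adj G a b y x := fun h => h.symm_of_swap ht hab hba
  have hnab : a ≠ b := fun hne => O.a_not_b (by rw [← hne]; exact mem_Orb_self a)
  -- the clique at `a`
  have hcl : ∀ x ∈ Orb G a b, ∀ y ∈ Orb G a b, x ≠ y → Adj G a b x y := by
    rintro x ⟨g, hg, hga, rfl⟩ y hy hxy
    have hy' : g⁻¹ y ∈ Orb G a b := (Orb_invariant hg hga b _).1 (by simpa using hy)
    have hne : g⁻¹ y ≠ b := by
      intro he
      apply hxy
      rw [← he]
      simp
    have := Adj.smul hg (h _ hy' hne)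
    simpa using this
  -- closed neighbourhoods
  let C : Ω → Finset Ω := fun x => insert x (nbrs G a b x)
  have hnoloop : ∀ x, ¬ Adj G a b x x := by
    rintro x ⟨g, _, h1, h2⟩
    exact hnab (g.injective (h1.trans h2.symm))
  have hCcard : ∀ x, (C x).card = 1756 := by
    intro x
    have h1 : x ∉ nbrs G a b x := by
      simp [nbrs, hnoloop x]
    simp only [C]
    rw [Finset.card_insert_of_notMem h1, card_nbrs_of_trans O.htr, O.hb]
  have hCclique : ∀ x, ∀ y ∈ C x, ∀ z ∈ C x, y ≠ z → Adj G a b y z := by
    intro x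
    obtain ⟨g, hg, rfl⟩ := O.htr x
    intro y hy z hz hyz
    have hmem : ∀ w ∈ C (g a), g⁻¹ w = a ∨ g⁻¹ w ∈ Orb G a b := by
      intro w hw
      simp only [C, Finset.mem_insert, nbrs, Finset.mem_filter, Finset.mem_univ, true_and] at hw
      rcases hw with rfl | hw
      · left; simp
      · right
        have := Adj.smul (G.inv_mem hg) hw
        have h7 : g⁻¹ (g a) = a := by simp
        rw [h7] at this
        exact this
    have hne : g⁻¹ y ≠ g⁻¹ z := fun he => hyz ((g⁻¹).injective he)
    have key : Adj G a b (g⁻¹ y) (g⁻¹ z) := by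
      rcases hmem y hy with h1 | h1 <;> rcases hmem z hz with h2 | h2
      · exact absurd (h1.trans h2.symm) hne
      · rw [h1]; exact h2
      · rw [h2]; exact hsym h1
      · exact hcl _ h1 _ h2 hne
    have := Adj.smul hg key
    simpa using this
  -- a closed neighbourhood of a point of `c`'s orbit lies in that orbit
  have hCin : ∀ x ∈ Orb G a c, ∀ y ∈ C x, y ∈ Orb G a c := by
    intro x hx y hy
    have hax : ¬ Adj G a b a x := fun he => O.disj he hx
    rcases O.cover y with rfl | h1 | h1
    · exfalso
      simp only [C, Finset.mem_insert, nbrs, Finset.mem_filter, Finset.mem_univ, true_and] at hy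
      rcases hy with rfl | hy
      · exact O.a_not_c hx
      · exact hax (hsym hy)
    · exfalso
      simp only [C, Finset.mem_insert, nbrs, Finset.mem_filter, Finset.mem_univ, true_and] at hy
      rcases hy with rfl | hy
      · exact O.disj h1 hx
      · -- `a, x` both lie in the closed neighbourhood of `y`
        have h2 : a ∈ C y := by
          simp only [C, Finset.mem_insert, nbrs, Finset.mem_filter, Finset.mem_univ, true_and]
          exact Or.inr (hsym (show Adj G a b a y from h1))
        have h3 : x ∈ C y := by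
          simp only [C, Finset.mem_insert, nbrs, Finset.mem_filter, Finset.mem_univ, true_and]
          exact Or.inr (hsym hy)
        have hne : a ≠ x := fun he => O.a_not_c (he ▸ hx)
        exact hax (hCclique y a h2 x h3 hne)
    · exact h1
  -- two closed neighbourhoods
  have hfinB : (fin (Orb G a c)).card = 2304 := by rw [← ncard_eq_fin, O.hc]
  have hsub : ∀ x ∈ Orb G a c, C x ⊆ fin (Orb G a c) := fun x hx y hy => mem_fin.2 (hCin x hx y hy)
  have hc0 : c ∈ Orb G a c := mem_Orb_self c
  obtain ⟨c', hc', hc'2⟩ : ∃ c' ∈ fin (Orb G a c), c' ∉ C c := by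
    by_contra hcon
    push Not at hcon
    have := Finset.card_le_card hcon
    rw [hfinB, hCcard] at this
    norm_num at this
  have hc'm := mem_fin.1 hc'
  obtain ⟨z, hz1, hz2⟩ : ∃ z, z ∈ C c ∧ z ∈ C c' := by
    by_contra hcon
    push Not at hcon
    have hd : Disjoint (C c) (C c') := by
      rw [Finset.disjoint_left]
      exact hcon
    have h1 := Finset.card_le_card (Finset.union_subset (hsub c hc0) (hsub c' hc'm))
    rw [Finset.card_union_of_disjoint hd, hCcard, hCcard, hfinB] at h1
    norm_num at h1
  have hrev : ∀ u v, v ∈ C u → u ∈ C v := by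
    intro u v hv
    simp only [C, Finset.mem_insert, nbrs, Finset.mem_filter, Finset.mem_univ, true_and] at hv ⊢
    rcases hv with rfl | hv
    · exact Or.inl rfl
    · exact Or.inr (hsym hv)
  have hne : c ≠ c' := by
    rintro rfl
    apply hc'2
    simp [C]
  have := hCclique z c (hrev _ _ hz1) c' (hrev _ _ hz2) hne
  apply hc'2
  simp only [C, Finset.mem_insert, nbrs, Finset.mem_filter, Finset.mem_univ, true_and]
  exact Or.inr this

end Cfsg.Agent.Lib.RuRec
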