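import Cfsg.Agent.Lib.CosetCert.Chain

/-!
# A search through the assignments of a rigid graph, for the kernel
-/

set_option autoImplicit false

namespace Cfsg.Agent.Lib.RuRec.Dfs

open Cfsg.Agent.Lib.TC.Core

/-- A bit of a number. -/
noncomputable def bt (r y : ℕ) : Bool := Nat.beq (Nat.land (Nat.shiftRight r y) 1) 1

theorem bt_eq (r y : ℕ) : bt r y = r.testBit y := by
  unfold bt
  rw [Nat.testBit_eq_decide_div_mod_eq]
  have h1 : Nat.land (Nat.shiftRight r y) 1 = r / 2 ^ y % 2 := by
    show (r >>> y) &&& 1 = _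
    rw [Nat.and_one_is_mod, Nat.shiftRight_eq_div_pow]
  rw [h1, Bool.eq_iff_iff, decide_eq_true_iff]
  exact ⟨Nat.eq_of_beq_eq_true, fun h => by rw [h]; rfl⟩

@[simp] theorem bt_land (a b y : ℕ) : bt (Nat.land a b) y = (bt a y && bt b y) := by
  rw [bt_eq, bt_eq, bt_eq]
  exact Nat.testBit_and a b y

theorem bt_xor_all {n r y : ℕ} (h : y < n) : bt (Nat.xor (2 ^ n - 1) r) y = !bt r y := by
  rw [bt_eq, bt_eq]
  have h1 : Nat.xor (2 ^ n - 1) r = (2 ^ n - 1) ^^^ r := rfl
  rw [h1, Nat.testBit_xor, Nat.testBit_two_pow_sub_one]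
  simp [h]

theorem bt_zero (y : ℕ) : bt 0 y = false := by
  rw [bt_eq]; simp

/-- Equality of booleans. -/
noncomputable def bieq (a b : Bool) : Bool :=
  Bool.rec (Bool.rec true false b) (Bool.rec false true b) a

@[simp] theorem bieq_eq_true (a b : Bool) : bieq a b = true ↔ a = b := by
  cases a <;> cases b <;> simp [bieq]

/-- The highest set bit of a number below `2 ^ (2 ^ d)`. -/
noncomputable def hbit (d m : ℕ) : ℕ :=
  Nat.rec (motive := fun _ => ℕ → ℕ) (fun _ => 0)
    (fun d' ih m => force (Nat.shiftRight m (Nat.shiftLeft 1 d')) fun h =>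
      Bool.rec (Nat.add (Nat.shiftLeft 1 d') (ih h)) (ih m) (Nat.beq h 0)) d m

/-- The loop over the set bits of a number. -/
noncomputable def allBits (p : ℕ → Bool) (fuel m : ℕ) : Bool :=
  Nat.rec (motive := fun _ => ℕ → Bool) (fun m => Nat.beq m 0)
    (fun _ ih m => Bool.rec
       (force (hbit 12 m) fun v => Bool.rec false (ih (Nat.xor m (Nat.shiftLeft 1 v))) (p v))
       true (Nat.beq m 0)) fuel m

theorem bt_xor_shift {m v y : ℕ} (h : y ≠ v) : bt (Nat.xor m (Nat.shiftLeft 1 v)) y = bt m y := by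
  rw [bt_eq, bt_eq]
  have h1 : Nat.xor m (Nat.shiftLeft 1 v) = m ^^^ (2 ^ v) := by
    have : Nat.shiftLeft 1 v = 1 <<< v := rfl
    rw [this, Nat.one_shiftLeft]; rfl
  rw [h1, Nat.testBit_xor, Nat.testBit_two_pow]
  have : ¬ v = y := fun e => h e.symm
  simp [this]

theorem allBits_spec {p : ℕ → Bool} {fuel m : ℕ} (h : allBits p fuel m = true) :
    ∀ v, bt m v = true → p v = true := by
  induction fuel generalizing m with
  | zero =>
    intro v hv
    have h0 : Nat.beq m 0 = true := h
    have h1 : m = 0 := Nat.eq_of_beq_eq_true h0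
    rw [h1, bt_zero] at hv
    exact absurd hv (by simp)
  | succ fuel ih =>
    intro v hv
    have h2 : allBits p (fuel + 1) m = Bool.rec
       (force (hbit 12 m) fun v => Bool.rec false (allBits p fuel (Nat.xor m (Nat.shiftLeft 1 v))) (p v))
       true (Nat.beq m 0) := rfl
    rw [h2, force_eq] at h
    cases h0 : Nat.beq m 0 with
    | true =>
      have h1 : m = 0 := Nat.eq_of_beq_eq_true h0
      rw [h1, bt_zero] at hv
      exact absurd hv (by simp)
    | false =>
      rw [h0] at h
      cases h3 : p (hbit 12 m) with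
      | false =>
        have h4 : (Bool.rec false (allBits p fuel (Nat.xor m (Nat.shiftLeft 1 (hbit 12 m))))
          (p (hbit 12 m)) : Bool) = true := h
        rw [h3] at h4
        exact absurd h4 (by simp)
      | true =>
        have h4 : (Bool.rec false (allBits p fuel (Nat.xor m (Nat.shiftLeft 1 (hbit 12 m))))
          (p (hbit 12 m)) : Bool) = true := h
        rw [h3] at h4
        by_cases hv2 : v = hbit 12 m
        · rw [hv2]; exact h3
        · exact ih h4 v (by rw [bt_xor_shift hv2]; exact hv)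

/-- The candidates from the pairs which are assigned. -/
noncomputable def mask (N0 ALL x : ℕ) (base : List (ℕ × ℕ)) : ℕ :=
  List.rec (motive := fun _ => ℕ) N0
    (fun p _ ih => Nat.land ih (Bool.rec (Nat.xor ALL p.2) p.2 (bt p.1 x))) base

/-- A new pair. -/
noncomputable def push (R : ℕ → ℕ) (a b : ℕ) (base : List (ℕ × ℕ)) (k : List (ℕ × ℕ) → Bool) : Bool :=
  force (R a) fun ra => force (R b) fun rb => k ((ra, rb) :: base)

/-- Five new pairs. -/
noncomputable def addB (R cc : ℕ → ℕ) (x v : ℕ) (base : List (ℕ × ℕ)) (k : List (ℕ × ℕ) → Bool) : Bool :=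
  push R x v base fun b1 =>
  push R (cc x) (cc v) b1 fun b2 =>
  push R (cc (cc x)) (cc (cc v)) b2 fun b3 =>
  push R (cc (cc (cc x))) (cc (cc (cc v))) b3 fun b4 =>
  push R (cc (cc (cc (cc x)))) (cc (cc (cc (cc v)))) b4 k

/-- The search. -/
noncomputable def ext (R cc : ℕ → ℕ) (leaf : List (ℕ × ℕ) → Bool) (N0 ALL fuel : ℕ)
    (rest : List (ℕ × Bool)) : List (ℕ × ℕ) → List (ℕ × ℕ) → Bool :=
  List.rec (motive := fun _ => List (ℕ × ℕ) → List (ℕ × ℕ) → Bool)
    (fun _ vals => leaf vals)
    (fun p _ ih base vals =>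
      force p.1 fun x =>
      force (R x) fun rx =>
      force (mask N0 ALL x base) fun m =>
      force (cc x) fun cx =>
      force (cc cx) fun ccx =>
      allBits (fun v =>
        force (R v) fun rv =>
        force (cc v) fun cv =>
        Bool.rec true
          (Bool.rec (ih base ((x, v) :: vals))
             (addB R cc x v base fun b => ih b ((x, v) :: vals)) p.2)
          (andB (bieq (bt rx cx) (bt rv cv)) (bieq (bt rx ccx) (bt rv (cc cv))))) fuel m)
    rest

/-- The hypotheses on an assignment. -/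
structure Hyp (R cc : ℕ → ℕ) (N0 n : ℕ) (f : ℕ → ℕ) (Nn : ℕ → Prop) : Prop where
  lt : ∀ y, Nn y → y < n
  h1 : ∀ y, Nn y → Nn (f y)
  h2 : ∀ y z, Nn y → Nn z → bt (R (f y)) (f z) = bt (R y) z
  h3 : ∀ y, Nn y → f (cc y) = cc (f y)
  h4 : ∀ y, Nn y → Nn (cc y)
  h5 : ∀ y, Nn y → bt N0 y = true

section

variable {R cc : ℕ → ℕ} {N0 n : ℕ} {f : ℕ → ℕ} {Nn : ℕ → Prop}

/-- The pairs which are assigned. -/
def BI (R : ℕ → ℕ) (f : ℕ → ℕ) (Nn : ℕ → Prop) (base : List (ℕ × ℕ)) : Prop :=
  ∀ p ∈ base, ∃ u, Nn u ∧ p.1 = R u ∧ p.2 = R (f u)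

theorem mask_spec (H : Hyp R cc N0 n f Nn) {x : ℕ} (hx : Nn x) {base : List (ℕ × ℕ)}
    (hb : BI R f Nn base) : bt (mask N0 (2 ^ n - 1) x base) (f x) = true := by
  induction base with
  | nil => exact H.h5 _ (H.h1 _ hx)
  | cons p base ih =>
    have h0 : mask N0 (2 ^ n - 1) x (p :: base) =
      Nat.land (mask N0 (2 ^ n - 1) x base) (Bool.rec (Nat.xor (2 ^ n - 1) p.2) p.2 (bt p.1 x)) := rfl
    rw [h0, bt_land, ih (fun q hq => hb q (by simp [hq]))]
    obtain ⟨u, hu, h1, h2⟩ := hb p (by simp)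
    rw [h1, h2, Bool.true_and]
    have h3 := H.h2 u x hu hx
    cases h4 : bt (R u) x with
    | true =>
      show bt (R (f u)) (f x) = true
      rw [h3, h4]
    | false =>
      show bt (Nat.xor (2 ^ n - 1) (R (f u))) (f x) = true
      rw [bt_xor_all (H.lt _ (H.h1 _ hx)), h3, h4]
      rfl

theorem push_eq (R : ℕ → ℕ) (a b : ℕ) (base : List (ℕ × ℕ)) (k : List (ℕ × ℕ) → Bool) :
    push R a b base k = k ((R a, R b) :: base) := by
  simp [push]

theorem BI_push {a : ℕ} (ha : Nn a) {base : List (ℕ × ℕ)} (hb : BI R f Nn base) :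
    BI R f Nn ((R a, R (f a)) :: base) := by
  intro p hp
  rcases List.mem_cons.1 hp with rfl | hp
  · exact ⟨a, ha, rfl, rfl⟩
  · exact hb p hp

theorem addB_spec (H : Hyp R cc N0 n f Nn) {x : ℕ} (hx : Nn x) {base : List (ℕ × ℕ)}
    (hb : BI R f Nn base) {k : List (ℕ × ℕ) → Bool} (h : addB R cc x (f x) base k = true) :
    ∃ b, BI R f Nn b ∧ k b = true := by
  unfold addB at h
  simp only [push_eq] at h
  have e1 := H.h3 x hx
  have h4 := H.h4
  have e2 := H.h3 _ (h4 _ hx)
  have e3 := H.h3 _ (h4 _ (h4 _ hx))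
  have e4 := H.h3 _ (h4 _ (h4 _ (h4 _ hx)))
  rw [← e1, ← e2, ← e3, ← e4] at h
  refine ⟨_, ?_, h⟩
  exact BI_push (h4 _ (h4 _ (h4 _ (h4 _ hx))))
    (BI_push (h4 _ (h4 _ (h4 _ hx))) (BI_push (h4 _ (h4 _ hx)) (BI_push (h4 _ hx) (BI_push hx hb))))

/-- The soundness of the search. -/
theorem ext_sound (H : Hyp R cc N0 n f Nn) {leaf : List (ℕ × ℕ) → Bool} {fuel : ℕ}
    (rest : List (ℕ × Bool)) (base vals : List (ℕ × ℕ))
    (h : ext R cc leaf N0 (2 ^ n - 1) fuel rest base vals = true)
    (hr : ∀ p ∈ rest, Nn p.1) (hb : BI R f Nn base) (hv : ∀ q ∈ vals, f q.1 = q.2) :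
    ∃ vals', leaf vals' = true ∧ (∀ q ∈ vals', f q.1 = q.2) ∧ (∀ q ∈ vals, q ∈ vals') ∧
      ∀ p ∈ rest, ∃ q ∈ vals', q.1 = p.1 := by
  induction rest generalizing base vals with
  | nil => exact ⟨vals, h, hv, fun q hq => hq, by simp⟩
  | cons p rest ih =>
    have h0 : ext R cc leaf N0 (2 ^ n - 1) fuel (p :: rest) base vals =
      force p.1 fun x =>
      force (R x) fun rx =>
      force (mask N0 (2 ^ n - 1) x base) fun m =>
      force (cc x) fun cx =>
      force (cc cx) fun ccx =>
      allBits (fun v =>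
        force (R v) fun rv =>
        force (cc v) fun cv =>
        Bool.rec true
          (Bool.rec (ext R cc leaf N0 (2 ^ n - 1) fuel rest base ((x, v) :: vals))
             (addB R cc x v base fun b => ext R cc leaf N0 (2 ^ n - 1) fuel rest b ((x, v) :: vals)) p.2)
          (andB (bieq (bt rx cx) (bt rv cv)) (bieq (bt rx ccx) (bt rv (cc cv))))) fuel m := rfl
    rw [h0] at h
    simp only [force_eq] at h
    have hx : Nn p.1 := hr p (by simp)
    have h1 := allBits_spec h (f p.1) (mask_spec H hx hb)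
    beta_reduce at h1
    have hc := H.h4 _ hx
    have e1 : bt (R p.1) (cc p.1) = bt (R (f p.1)) (cc (f p.1)) := by
      rw [← H.h3 _ hx, H.h2 _ _ hx hc]
    have e2 : bt (R p.1) (cc (cc p.1)) = bt (R (f p.1)) (cc (cc (f p.1))) := by
      rw [← H.h3 _ hx, ← H.h3 _ hc, H.h2 _ _ hx (H.h4 _ hc)]
    have e3 : andB (bieq (bt (R p.1) (cc p.1)) (bt (R (f p.1)) (cc (f p.1))))
        (bieq (bt (R p.1) (cc (cc p.1))) (bt (R (f p.1)) (cc (cc (f p.1))))) = true := by
      rw [andB_eq_true, bieq_eq_true, bieq_eq_true]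
      exact ⟨e1, e2⟩
    rw [e3] at h1
    have hv' : ∀ q ∈ (p.1, f p.1) :: vals, f q.1 = q.2 := by
      intro q hq
      rcases List.mem_cons.1 hq with rfl | hq
      · rfl
      · exact hv q hq
    have hr' : ∀ q ∈ rest, Nn q.1 := fun q hq => hr q (by simp [hq])
    have hfin : ∃ b, BI R f Nn b ∧ ext R cc leaf N0 (2 ^ n - 1) fuel rest b ((p.1, f p.1) :: vals) = true := by
      cases h5 : p.2 with
      | false =>
        rw [h5] at h1
        exact ⟨base, hb, h1⟩
      | true =>
        rw [h5] at h1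
        exact addB_spec H hx hb h1
    obtain ⟨b, hb', hk⟩ := hfin
    obtain ⟨vals', h6, h7, h8, h9⟩ := ih b _ hk hr' hb' hv'
    refine ⟨vals', h6, h7, fun q hq => h8 q (by simp [hq]), ?_⟩
    intro q hq
    rcases List.mem_cons.1 hq with rfl | hq
    · exact ⟨(q.1, f q.1), h8 _ (by simp), rfl⟩
    · exact h9 q hq

end

/-- Some `p e` for `e < k`. -/
noncomputable def anyE (p : ℕ → Bool) (k : ℕ) : Bool :=
  Nat.rec (motive := fun _ => Bool) false (fun l ih => Bool.rec ih true (p l)) k

theorem anyE_spec {p : ℕ → Bool} {k : ℕ} (h : anyE p k = true) : ∃ e, e < k ∧ p e = true := by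
  induction k with
  | zero => exact absurd h (by simp [anyE])
  | succ k ih =>
    have h1 : anyE p (k + 1) = Bool.rec (anyE p k) true (p k) := rfl
    rw [h1] at h
    cases h0 : p k with
    | true => exact ⟨k, by omega, h0⟩
    | false =>
      rw [h0] at h
      obtain ⟨e, h2, h3⟩ := ih h
      exact ⟨e, by omega, h3⟩

/-- All the elements of a list. -/
noncomputable def allL {α : Type} (p : α → Bool) (l : List α) : Bool :=
  List.rec (motive := fun _ => Bool) true (fun a _ ih => Bool.rec false ih (p a)) l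

theorem allL_spec {α : Type} {p : α → Bool} {l : List α} (h : allL p l = true) : ∀ a ∈ l, p a = true := by
  induction l with
  | nil => simp
  | cons a l ih =>
    have h1 : allL p (a :: l) = Bool.rec false (allL p l) (p a) := rfl
    rw [h1] at h
    cases h0 : p a with
    | false => rw [h0] at h; exact absurd h (by simp)
    | true =>
      rw [h0] at h
      intro b hb
      rcases List.mem_cons.1 hb with rfl | hb
      · exact h0
      · exact ih h b hb

/-- Some element of a list. -/
noncomputable def anyL {α : Type} (p : α → Bool) (l : List α) : Bool :=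
  List.rec (motive := fun _ => Bool) false (fun a _ ih => Bool.rec ih true (p a)) l

theorem anyL_spec {α : Type} {p : α → Bool} {l : List α} (h : anyL p l = true) : ∃ a ∈ l, p a = true := by
  induction l with
  | nil => exact absurd h (by simp [anyL])
  | cons a l ih =>
    have h1 : anyL p (a :: l) = Bool.rec (anyL p l) true (p a) := rfl
    rw [h1] at h
    cases h0 : p a with
    | true => exact ⟨a, by simp, h0⟩
    | false =>
      rw [h0] at h
      obtain ⟨b, h2, h3⟩ := ih h
      exact ⟨b, by simp [h2], h3⟩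

/-- Decision trees. -/
inductive DT where
  | l (v : ℕ) : DT
  | n (i : ℕ) (a b : DT) : DT

/-- The value of a decision tree: the row `i` is read at the point `x`. -/
noncomputable def DT.ev (rw : ℕ → ℕ) (x : ℕ) (t : DT) : ℕ :=
  DT.rec (motive := fun _ => ℕ) (fun v => v)
    (fun i _ _ iha ihb => Bool.rec iha ihb (bt (rw i) x)) t

/-- All the rows of a decision tree are good. -/
noncomputable def DT.ok (p : ℕ → Bool) (t : DT) : Bool :=
  DT.rec (motive := fun _ => Bool) (fun _ => true)
    (fun i _ _ iha ihb => Bool.rec false (Bool.rec false ihb iha) (p i)) t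

theorem DT.ev_congr {rw : ℕ → ℕ} {p : ℕ → Bool} {x x' : ℕ} (t : DT) (ht : DT.ok p t = true)
    (h : ∀ i, p i = true → bt (rw i) x = bt (rw i) x') : DT.ev rw x t = DT.ev rw x' t := by
  induction t with
  | l v => rfl
  | n i a b iha ihb =>
    have h1 : DT.ok p (DT.n i a b) = Bool.rec false (Bool.rec false (DT.ok p b) (DT.ok p a)) (p i) := rfl
    rw [h1] at ht
    cases h2 : p i with
    | false => rw [h2] at ht; exact absurd ht (by simp)
    | true =>
      rw [h2] at ht
      cases h3 : DT.ok p a with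
      | false => simp [h3] at ht
      | true =>
        have h4 : DT.ok p b = true := by simpa [h3] using ht
        have e1 : DT.ev rw x (DT.n i a b) = Bool.rec (DT.ev rw x a) (DT.ev rw x b) (bt (rw i) x) := rfl
        have e2 : DT.ev rw x' (DT.n i a b) = Bool.rec (DT.ev rw x' a) (DT.ev rw x' b) (bt (rw i) x') := rfl
        rw [e1, e2, h i h2, iha h3, ihb h4]

end Cfsg.Agent.Lib.RuRec.Dfs
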