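import Cfsg.Agent.Lib.RuRec.Ck2
import Cfsg.Agent.Lib.RuRec.TbI
import Cfsg.Agent.Lib.Tits.Main

/-!
# Rank three recognition of the Rudvalis group: the stabiliser of a point is ²F₄(2)
-/

set_option autoImplicit false
set_option linter.unusedVariables false
set_option maxRecDepth 100000

namespace Cfsg.Agent.Lib.RuRec.Cc

open Equiv Cfsg.Agent.Lib.CosetCert Cfsg.Agent.Lib.CosetCert.D.Ru.Tbl Cfsg.Agent.Lib.TC.Core
  Cfsg.Agent.Lib.TC.Enc Cfsg.Agent.Lib.RuRec.Dfs Cfsg.Agent.Lib.RuRec.Tb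
open _root_.Cfsg.Agent.Lib.PermComp Cfsg.Agent.Lib.Tits Cfsg.Agent.Lib.Tits.WChain
  Cfsg.Agent.Lib.Tits.Defs Cfsg.Agent.Lib.Tits.Main

/-! ### The checks -/

theorem lamChk1 : allR (guard 1755 (fun a => andB (Nat.beq (lamI (lamT a)) a)
    (andB (isO1 (lamT a)) (Nat.blt (lamT a) 4060)))) 11 0 = true := by decide +kernel

theorem lamChk2 : allR (guard 4060 (fun y => Bool.rec true
    (andB (Nat.blt (lamI y) 1755) (Nat.beq (lamT (lamI y)) y)) (isO1 y))) 12 0 = true := by decide +kernel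

/-- The check of a lift. -/
noncomputable def liftChk (i : ℕ) : Bool :=
  allR (guard 1755 (fun a => Nat.beq
    (walk (fun x l => F1 l x) (walk (fun x l => F2 l x) (lamT a) (liftW.getD i ([], [])).1) (liftW.getD i ([], [])).2)
    (lamT (Core.app 11 2047 (tt_Pp.getD i (0, 0)).1 a)))) 11 0

theorem liftAll : allLt liftChk 12 = true := by decide +kernel

theorem liftK : ∀ i, i < 12 → (∀ l ∈ (liftW.getD i ([], [])).1, l < 5) ∧ (∀ l ∈ (liftW.getD i ([], [])).2, l < 3) := by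
  decide +kernel

/-! ### The bijection -/

/-- A number as a point of the small set. -/
def toF (n : ℕ) : Fin tt_n := ⟨n % 1755, Nat.mod_lt _ (by decide)⟩

theorem toF_val {n : ℕ} (h : n < 1755) : (toF n).val = n := Nat.mod_eq_of_lt h

/-- The bijection. -/
noncomputable def lamX (a : Fin tt_n) : X := toX (lamT a.val)

theorem lam_spec (a : Fin tt_n) : lamI (lamT a.val) = a.val ∧ isO1 (lamT a.val) = true ∧ lamT a.val < 4060 := by
  have h := all_of_allR (by decide) lamChk1 a.val a.2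
  simp only [andB_eq_true] at h
  exact ⟨Nat.eq_of_beq_eq_true h.1, h.2.1, Nat.le_of_ble_eq_true h.2.2⟩

theorem lamX_val (a : Fin tt_n) : (lamX a).val = lamT a.val := toX_val (lam_spec a).2.2

theorem lamX_mem (a : Fin tt_n) : ∃ q ∈ L1.G, q b0 = lamX a := by
  apply isO1_iff.1
  rw [lamX_val]
  exact (lam_spec a).2.1

theorem lamX_inj : Function.Injective lamX := by
  intro a b h
  have h1 := congrArg Fin.val h
  rw [lamX_val, lamX_val] at h1
  apply Fin.ext
  rw [← (lam_spec a).1, ← (lam_spec b).1, h1]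

theorem lamX_toF {y : X} (hy : ∃ q ∈ L1.G, q b0 = y) : lamX (toF (lamI y.val)) = y := by
  have h := all_of_allR (by decide) lamChk2 y.val y.2
  rw [isO1_iff.2 hy] at h
  have h1 := (andB_eq_true _ _).1 h
  have h2 : lamI y.val < 1755 := Nat.le_of_ble_eq_true h1.1
  apply Fin.ext
  rw [lamX_val, toF_val h2]
  exact Nat.eq_of_beq_eq_true h1.2

theorem O1_smul {q : Perm X} (hq : q ∈ L1.G) {y : X} (hy : ∃ p ∈ L1.G, p b0 = y) :
    ∃ p ∈ L1.G, p b0 = q y := by
  obtain ⟨p, hp, rfl⟩ := hy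
  exact ⟨q * p, L1.G.mul_mem hq hp, rfl⟩

/-- The action on the small set. -/
noncomputable def rhoP (q : L1.G) : Perm (Fin tt_n) where
  toFun a := toF (lamI (q.1 (lamX a)).val)
  invFun a := toF (lamI ((q.1)⁻¹ (lamX a)).val)
  left_inv a := by
    apply lamX_inj
    have h1 := O1_smul q.2 (lamX_mem a)
    rw [lamX_toF (O1_smul (L1.G.inv_mem q.2) (lamX_mem _)), lamX_toF h1]
    simp
  right_inv a := by
    apply lamX_inj
    have h1 := O1_smul (L1.G.inv_mem q.2) (lamX_mem a)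
    rw [lamX_toF (O1_smul q.2 (lamX_mem _)), lamX_toF h1]
    simp

theorem rhoP_spec (q : L1.G) (a : Fin tt_n) : lamX (rhoP q a) = q.1 (lamX a) :=
  lamX_toF (O1_smul q.2 (lamX_mem a))

/-- The action as a homomorphism. -/
noncomputable def rho : L1.G →* Perm (Fin tt_n) :=
  MonoidHom.mk' rhoP (by
    intro p q
    ext a
    apply congrArg Fin.val
    apply lamX_inj
    rw [rhoP_spec, Perm.mul_apply, rhoP_spec, rhoP_spec]
    rfl)

theorem rho_spec (q : L1.G) (a : Fin tt_n) : lamX (rho q a) = q.1 (lamX a) := rhoP_spec q a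

theorem gen_lift {i : ℕ} (hi : i < 12) {g : Perm (Fin tt_n)}
    (hg : Core.Rep tt_w tt_mask (Equiv.refl (Fin tt_n)) (tt_Pp.getD i (0, 0)).1 g) :
    g ∈ rho.range := by
  obtain ⟨h1, h2⟩ := liftK i hi
  have h1' : ∀ l ∈ (liftW.getD i ([], [])).1, l < L2.k := h1
  have h2' : ∀ l ∈ (liftW.getD i ([], [])).2, l < L1.k := h2
  have hm : ev L1.val (liftW.getD i ([], [])).2 * ev L2.val (liftW.getD i ([], [])).1 ∈ L1.G :=
    L1.G.mul_mem (L1.ev_mem h2') (le12 (L2.ev_mem h1'))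
  refine ⟨⟨_, hm⟩, ?_⟩
  ext a
  apply congrArg Fin.val
  apply lamX_inj
  rw [rho_spec]
  apply Fin.ext
  rw [lamX_val]
  simp only [Perm.mul_apply]
  rw [L1.ev_apply h2', L2.ev_apply h1', lamX_val]
  have h3 := Nat.eq_of_beq_eq_true (all_of_allR (by decide) (allLt_spec liftAll i hi) a.val a.2)
  have h4 := hg a
  simp only [Equiv.refl_apply] at h4
  have h5 : Core.app 11 2047 (tt_Pp.getD i (0, 0)).1 a.val = (g a).val := h4
  rw [h5] at h3
  exact h3

theorem mem_Pp {p : ℕ × ℕ} (hp : p ∈ tt_Pp) : ∃ i, i < 12 ∧ tt_Pp.getD i (0, 0) = p := by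
  obtain ⟨n, hn, h⟩ := List.mem_iff_getElem.1 hp
  have hl : tt_Pp.length = 12 := rfl
  refine ⟨n, by omega, ?_⟩
  rw [List.getD_eq_getElem _ _ hn, h]

theorem Pg_le : Pg ≤ rho.range := by
  show Core.H tt_w tt_mask (Equiv.refl (Fin tt_n)) (tt_Pp.map (·.1)) ≤ _
  unfold Core.H
  rw [Subgroup.closure_le]
  rintro g ⟨c, hc, hg⟩
  obtain ⟨p, hp, rfl⟩ := List.mem_map.1 hc
  obtain ⟨i, hi, h⟩ := mem_Pp hp
  refine gen_lift hi ?_
  rw [h]
  exact hg

theorem rho_range : rho.range = Pg := by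
  have hc1 : Nat.card Pg = 35942400 := by
    have := structure_main.2.2.2.1
    rw [this]
  have hc2 : Nat.card rho.range ≤ 35942400 := by
    rw [← D.Ru.Final.card1]
    exact Nat.card_le_card_of_surjective rho.rangeRestrict rho.rangeRestrict_surjective
  exact (Subgroup.eq_of_le_of_card_ge Pg_le (by rw [hc1]; exact hc2)).symm

theorem rho_bij : Function.Bijective rho.rangeRestrict := by
  have hc1 : Nat.card Pg = 35942400 := by
    have := structure_main.2.2.2.1
    rw [this]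
  refine Function.Surjective.bijective_of_nat_card_le rho.rangeRestrict_surjective ?_
  rw [D.Ru.Final.card1, rho_range, hc1]

/-- The stabiliser of a point in the model is ²F₄(2). -/
theorem exists_iso : Nonempty (Cfsg.Lie.twistedF4 (ZMod 2) 1 ≃* L1.G) := by
  obtain ⟨φ⟩ := nonempty_perm
  let ψ : L1.G ≃* rho.range := MulEquiv.ofBijective rho.rangeRestrict rho_bij
  exact ⟨φ.trans ((MulEquiv.subgroupCongr rho_range.symm).trans ψ.symm)⟩

end Cfsg.Agent.Lib.RuRec.Cc
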