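import Cfsg.Agent.Lib.RuRec.Stage3

/-!
# Rank three recognition of the Rudvalis group: the abstract theorem
-/

set_option autoImplicit false
set_option linter.unusedSectionVars false
set_option linter.unusedVariables false

namespace Cfsg.Agent.Lib.RuRec

open Equiv
open scoped Classical

/-- The orbit-stabiliser theorem for a homomorphism to a permutation group. -/
theorem card_orbit_hom {A : Type*} [Group A] {Ω : Type*} (φ : A →* Perm Ω) (w : Ω) :
    Nat.card (((MulAction.stabilizer (Perm Ω) w).comap φ : Subgroup A)) *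
      (Set.range fun g : A => φ g w).ncard = Nat.card A := by
  letI : MulAction A Ω := MulAction.compHom Ω φ
  have h1 := MulAction.index_stabilizer A w
  have h2 : (MulAction.orbit A w) = Set.range fun g : A => φ g w := rfl
  have h3 : MulAction.stabilizer A w = (MulAction.stabilizer (Perm Ω) w).comap φ := by
    ext g
    rfl
  rw [h2, h3] at h1
  rw [← h1]
  exact Subgroup.card_mul_index _

section

variable {X : Type} [Fintype X] {Ω : Type*} [Fintype Ω] {D : Dat X} {G : Subgroup (Perm Ω)}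
  {a b c : Ω} {th : Perm X → Perm Ω}

/-- The subgroup of the elements stabilising `b`. -/
def stabK (T : Th D G a th) (b : Ω) : Subgroup (Perm X) where
  carrier := {q | q ∈ D.Q ∧ th q b = b}
  mul_mem' := by
    rintro p q ⟨hp, hpb⟩ ⟨hq, hqb⟩
    refine ⟨D.Q.mul_mem hp hq, ?_⟩
    rw [T.mul p hp q hq, Perm.mul_apply, hqb, hpb]
  one_mem' := ⟨D.Q.one_mem, by rw [T.one]; rfl⟩
  inv_mem' := by
    rintro p ⟨hp, hpb⟩
    refine ⟨D.Q.inv_mem hp, ?_⟩
    rw [T.inv hp, Perm.inv_eq_iff_eq]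
    exact hpb.symm

theorem card_stabK (M : Mdl D) (T : Th D G a th) (O : Orbits G a b c) :
    Nat.card (stabK T b) = 20480 := by
  let φ : D.Q →* Perm Ω :=
    { toFun := fun q => th q
      map_one' := T.one
      map_mul' := fun p q => T.mul p p.2 q q.2 }
  have h1 := card_orbit_hom φ b
  have h2 : (Set.range fun g : D.Q => φ g b) = Orb G a b := by
    ext y
    constructor
    · rintro ⟨q, rfl⟩
      exact ⟨th q, T.mem q q.2, T.fix q q.2, rfl⟩
    · rintro ⟨g, hg, hga, rfl⟩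
      obtain ⟨q, hq, rfl⟩ := T.surj g hg hga
      exact ⟨⟨q, hq⟩, rfl⟩
  rw [h2, O.hb, M.cardQ] at h1
  have h3 : Nat.card ((MulAction.stabilizer (Perm Ω) b).comap φ : Subgroup D.Q) = Nat.card (stabK T b) := by
    refine Nat.card_congr ⟨fun q => ⟨q.1.1, q.1.2, MulAction.mem_stabilizer_iff.1 q.2⟩,
      fun q => ⟨⟨q.1, q.2.1⟩, MulAction.mem_stabilizer_iff.2 q.2.2⟩, fun q => rfl, fun q => rfl⟩
  rw [h3] at h1
  omega

/-- The abstract theorem. -/
theorem main_abs (M : Mdl D) (T : Th D G a th) (O : Orbits G a b c)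
    (hG : Nat.card G = 145926144000) : Nonempty (G ≃* D.R) := by
  -- conjugate the point
  obtain ⟨x, hxQ, hx⟩ := M.hK (stabK T b) (fun q hq => hq.1) (card_stabK M T O)
  set b' := th x b with hb'
  have hOrb : Orb G a b' = Orb G a b := Orb_smul (T.mem x hxQ) (T.fix x hxQ) b
  have O' : Orbits G a b' c := ⟨O.htr, by rw [hOrb]; exact O.hb, O.hc, O.hcard⟩
  have S : Sg M T O' := by
    refine ⟨fun q hq => ?_⟩
    have hq' : x⁻¹ * q * x ∈ D.Q := D.Q.mul_mem (D.Q.mul_mem (D.Q.inv_mem hxQ) hq) hxQ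
    have h1 := hx _ hq'
    have h2 : x * (x⁻¹ * q * x) * x⁻¹ = q := by group
    rw [h2] at h1
    rw [← h1]
    constructor
    · intro h3
      refine ⟨hq', ?_⟩
      rw [T.mul _ (D.Q.mul_mem (D.Q.inv_mem hxQ) hq) _ hxQ, T.mul _ (D.Q.inv_mem hxQ) _ hq, T.inv hxQ]
      simp only [Perm.mul_apply]
      rw [← hb', h3, hb']
      simp
    · rintro ⟨-, h3⟩
      rw [T.mul _ (D.Q.mul_mem (D.Q.inv_mem hxQ) hq) _ hxQ, T.mul _ (D.Q.inv_mem hxQ) _ hq, T.inv hxQ] at h3
      simp only [Perm.mul_apply] at h3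
      rw [← hb', Perm.inv_eq_iff_eq] at h3
      exact h3
  obtain ⟨t, ht, hta, htb⟩ := O'.exists_swap
  obtain ⟨t2, W, hY⟩ := exists_good S ⟨ht, hta, htb⟩
  -- the transport
  have hbij := uu_bij S W hY
  set u := uu D th a b' (t2 (vv D th a b' D.d0)) with hu
  let U : X ≃ Ω := Equiv.ofBijective u hbij
  have hU : ∀ x, U x = u x := fun x => rfl
  let Φ : Perm X →* Perm Ω :=
    { toFun := fun g => U.permCongr g
      map_one' := by ext; simp
      map_mul' := fun g h => by ext; simp }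
  have hΦ : ∀ g x, Φ g (u x) = u (g x) := by
    intro g x
    show U.permCongr g (U x) = U (g x)
    simp [Equiv.permCongr_apply]
  have hΦinj : Function.Injective Φ := by
    intro g h he
    ext x
    have h1 := hΦ g x
    rw [he, hΦ h x] at h1
    exact hbij.1 h1.symm
  have hQm : ∀ q ∈ D.Q, Φ q = th q := by
    intro q hq
    ext w
    obtain ⟨x, rfl⟩ := hbij.2 w
    rw [hΦ, hu, uu_q S W hY hq]
  have htm : Φ D.t0 = t2 := by
    ext w
    obtain ⟨x, rfl⟩ := hbij.2 w
    rw [hΦ, hu, t_uu S W hY]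
  -- the image of `R`
  have hRle : ∀ r ∈ D.R, Φ r ∈ G := by
    intro r hr
    have hQR := M.hQR
    have hPQ : ∀ q ∈ D.Q, Φ q ∈ G := fun q hq => by
      rw [hQm q hq]
      exact T.mem q hq
    have hPt : Φ D.t0 ∈ G := by
      rw [htm]
      exact W.mem
    -- an element of `R` with the value of `r` at `a0` whose image is in `G`
    obtain ⟨r', hr'R, hr'G, hr'a⟩ : ∃ r' ∈ D.R, Φ r' ∈ G ∧ r' D.a0 = r D.a0 := by
      rcases M.cover (r D.a0) with h | ⟨q, hq, h⟩ | ⟨q, hq, h⟩
      · exact ⟨1, D.R.one_mem, by rw [map_one]; exact G.one_mem, by simp [h]⟩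
      · refine ⟨q * D.t0, D.R.mul_mem (hQR hq) M.t0R, ?_, ?_⟩
        · rw [map_mul]
          exact G.mul_mem (hPQ q hq) hPt
        · rw [Perm.mul_apply, M.t0a, h]
      · obtain ⟨q', hq', hq'e⟩ := M.d0mem.1
        refine ⟨q * D.t0 * q' * D.t0, ?_, ?_, ?_⟩
        · exact D.R.mul_mem (D.R.mul_mem (D.R.mul_mem (hQR hq) M.t0R) (hQR hq')) M.t0R
        · rw [map_mul, map_mul, map_mul]
          exact G.mul_mem (G.mul_mem (G.mul_mem (hPQ q hq) hPt) (hPQ q' hq')) hPt
        · simp only [Perm.mul_apply]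
          rw [M.t0a, hq'e, ← M.c0eq, h]
    have h1 : r'⁻¹ * r ∈ D.Q := by
      apply M.hstabR _ (D.R.mul_mem (D.R.inv_mem hr'R) hr)
      rw [Perm.mul_apply, ← hr'a]
      simp
    have h2 : r = r' * (r'⁻¹ * r) := by group
    rw [h2, map_mul]
    exact G.mul_mem hr'G (hPQ _ h1)
  -- comparing orders
  have hfin : Finite G := Nat.finite_of_card_ne_zero (by rw [hG]; norm_num)
  have hle : D.R.map Φ ≤ G := by
    rintro _ ⟨r, hr, rfl⟩
    exact hRle r hr
  have hcard : Nat.card G ≤ Nat.card (D.R.map Φ) := by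
    rw [Subgroup.card_map_of_injective hΦinj, M.cardR, hG]
  have heq : D.R.map Φ = G := Subgroup.eq_of_le_of_card_ge hle hcard
  exact ⟨((D.R.equivMapOfInjective Φ hΦinj).trans (MulEquiv.subgroupCongr heq)).symm⟩

end

end Cfsg.Agent.Lib.RuRec
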