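import Cfsg.Agent.Lib.RuRec.Cnt

/-!
# Rank three recognition of the Rudvalis group: the model and the first stage
-/

set_option autoImplicit false
set_option linter.unusedSectionVars false
set_option linter.unusedVariables false

namespace Cfsg.Agent.Lib.RuRec

open Equiv
open scoped Classical

/-- The data of the model. -/
structure Dat (X : Type) where
  Q : Subgroup (Perm X)
  R : Subgroup (Perm X)
  a0 : X
  b0 : X
  c0 : X
  d0 : X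
  t0 : Perm X
  c : Perm X
  d : Perm X
  Gam : X → X → Prop
  Nr : Set X

namespace Dat

variable {X : Type} (D : Dat X)

/-- The orbit of `b0`. -/
def O1 : Set X := {x | ∃ q ∈ D.Q, q D.b0 = x}

/-- The orbit of `c0`. -/
def O2 : Set X := {x | ∃ q ∈ D.Q, q D.c0 = x}

/-- The point `a0` and the orbit of `b0`. -/
def Y1 : Set X := {x | x = D.a0 ∨ x ∈ D.O1}

/-- The points whose patterns are compared. -/
def Y0 : Set X := {x | x = D.a0 ∨ x = D.b0 ∨ x ∈ D.Nr}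

/-- The points opposite to `b0`. -/
def D4 : Set X := {y | y ∈ D.O1 ∧ y ≠ D.b0 ∧ ¬ D.Gam D.b0 y}

/-- A candidate for the action on `Nr` is refuted. -/
def Refuted (τ : X → X) : Prop :=
  ∃ h ∈ D.Q, ∃ v ∈ D.Nr, h D.b0 = τ v ∧ D.Gam v D.d0 ∧
    ∀ d' ∈ D.D4, ∃ v1 ∈ D.Nr, ∃ v2 ∈ D.Nr, h (τ v1) = τ v2 ∧ ¬ (D.Gam v2 D.d0 ↔ D.Gam v1 d')

end Dat

/-- The properties of the model. -/
structure Mdl {X : Type} [Fintype X] (D : Dat X) : Prop where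
  hQR : D.Q ≤ D.R
  hQa : ∀ q ∈ D.Q, q D.a0 = D.a0
  hstabR : ∀ r ∈ D.R, r D.a0 = D.a0 → r ∈ D.Q
  cardQ : Nat.card D.Q = 35942400
  cardR : Nat.card D.R = 145926144000
  cardX : Fintype.card X = 4060
  cover : ∀ x, x = D.a0 ∨ x ∈ D.O1 ∨ x ∈ D.O2
  a0_not1 : D.a0 ∉ D.O1
  a0_not2 : D.a0 ∉ D.O2
  disj : ∀ x, x ∈ D.O1 → x ∈ D.O2 → False
  cardO1 : D.O1.ncard = 1755
  cardO2 : D.O2.ncard = 2304
  t0R : D.t0 ∈ D.R
  t0a : D.t0 D.a0 = D.b0
  t0b : D.t0 D.b0 = D.a0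
  Inv : ∀ q ∈ D.Q, ∀ x ∈ D.Y1, ∀ y, D.Gam (q x) (q y) ↔ D.Gam x y
  Gam_a0 : ∀ y, D.Gam D.a0 y ↔ y ∈ D.O1
  Gam_b0_a0 : D.Gam D.b0 D.a0
  Gam_b0_b0 : ¬ D.Gam D.b0 D.b0
  Nr_iff : ∀ y, y ∈ D.Nr ↔ y ∈ D.O1 ∧ y ≠ D.b0 ∧ D.Gam D.b0 y
  hD : ∀ S : Set X, (∀ q ∈ D.Q, q D.b0 = D.b0 → ∀ y ∈ S, q y ∈ S) → (∀ y ∈ S, y ∈ D.O1 ∧ y ≠ D.b0) →
    256 ∣ 1754 - S.ncard → S = D.Nr ∨ (∀ y, y ∈ D.O1 → y ≠ D.b0 → y ∈ S)
  t0Nr : ∀ y ∈ D.Nr, D.t0 y ∈ D.Nr
  t0Nr' : ∀ y ∈ D.Nr, D.t0⁻¹ y ∈ D.Nr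
  Gam_t0 : ∀ y ∈ D.Y0, ∀ x, D.Gam (D.t0 y) (D.t0 x) ↔ D.Gam y x
  pat_inj : ∀ x x', (∀ y ∈ D.Y0, D.Gam y x ↔ D.Gam y x') → x = x'
  d0mem : D.d0 ∈ D.D4
  c0eq : D.c0 = D.t0 D.d0
  cQ : D.c ∈ D.Q
  cb : D.c D.b0 = D.b0
  c5 : D.c ^ 5 = 1
  cne : D.c ≠ 1
  dQ : D.d ∈ D.Q
  db : D.d D.b0 = D.b0
  dc : D.d * D.c * D.d⁻¹ = D.c ^ 2
  cardK : Nat.card (D.Q ⊓ MulAction.stabilizer (Perm X) D.b0 : Subgroup (Perm X)) = 20480
  hK : ∀ K' : Subgroup (Perm X), K' ≤ D.Q → Nat.card K' = 20480 →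
    ∃ x ∈ D.Q, ∀ q ∈ D.Q, q ∈ K' ↔ (x * q * x⁻¹) D.b0 = D.b0
  hRigid : ∀ τ : X → X, (∀ y ∈ D.Nr, τ y ∈ D.Nr) → Set.InjOn τ D.Nr →
    (∀ y ∈ D.Nr, ∀ z ∈ D.Nr, D.Gam (τ y) (τ z) ↔ D.Gam y z) →
    (∀ y ∈ D.Nr, τ (D.c y) = D.c (τ y)) →
    (∃ k ∈ D.Q, k D.b0 = D.b0 ∧ ∀ y ∈ D.Nr, τ y = k (D.t0 y)) ∨ D.Refuted τ
  hProp : ∀ A : X → Prop, (∀ y ∈ D.Nr, A y ↔ D.Gam y D.c0) → A D.b0 →
    (∀ h ∈ D.Q, A (h D.b0) → ∃ d' ∈ D.D4, ∀ z ∈ D.Nr, A (h z) ↔ D.Gam z (D.t0 d')) →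
    ∀ y ∈ D.O1, A y ↔ D.Gam y D.c0

/-- The isomorphism of the point stabiliser with the model stabiliser, as a function. -/
structure Th {X : Type} {Ω : Type*} (D : Dat X) (G : Subgroup (Perm Ω)) (a : Ω)
    (th : Perm X → Perm Ω) : Prop where
  mul : ∀ p ∈ D.Q, ∀ q ∈ D.Q, th (p * q) = th p * th q
  mem : ∀ q ∈ D.Q, th q ∈ G
  fix : ∀ q ∈ D.Q, th q a = a
  surj : ∀ g ∈ G, g a = a → ∃ q ∈ D.Q, th q = g
  inj : ∀ q ∈ D.Q, th q = 1 → q = 1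

section

variable {X : Type} [Fintype X] {Ω : Type*} [Fintype Ω] {D : Dat X} {G : Subgroup (Perm Ω)} {a : Ω}
  {th : Perm X → Perm Ω}

namespace Th

variable (T : Th D G a th)
include T

theorem one : th 1 = 1 := by
  have h := T.mul 1 D.Q.one_mem 1 D.Q.one_mem
  rw [mul_one] at h
  exact (mul_eq_left.1 h.symm)

theorem inv {q : Perm X} (hq : q ∈ D.Q) : th q⁻¹ = (th q)⁻¹ := by
  have h := T.mul q hq q⁻¹ (D.Q.inv_mem hq)
  rw [mul_inv_cancel, T.one] at h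
  exact (inv_eq_of_mul_eq_one_right h.symm).symm

theorem pow {q : Perm X} (hq : q ∈ D.Q) (n : ℕ) : th (q ^ n) = (th q) ^ n := by
  induction n with
  | zero => simpa using T.one
  | succ n ih => rw [pow_succ, pow_succ, T.mul _ (D.Q.pow_mem hq n) _ hq, ih]

theorem inv_apply_a {q : Perm X} (hq : q ∈ D.Q) : (th q)⁻¹ a = a := by
  rw [Perm.inv_eq_iff_eq]
  exact (T.fix q hq).symm

end Th

/-- The orbit map. -/
noncomputable def omap (D : Dat X) (th : Perm X → Perm Ω) (p : X) (w : Ω) (x : X) : Ω :=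
  if h : ∃ q, q ∈ D.Q ∧ q p = x then th (Classical.choose h) w else w

theorem omap_smul (T : Th D G a th) {p : X} {w : Ω} (hs : ∀ q ∈ D.Q, q p = p → th q w = w)
    {q : Perm X} (hq : q ∈ D.Q) : omap D th p w (q p) = th q w := by
  have h : ∃ q', q' ∈ D.Q ∧ q' p = q p := ⟨q, hq, rfl⟩
  rw [omap, dif_pos h]
  obtain ⟨h1, h2⟩ := Classical.choose_spec h
  set q' := Classical.choose h
  have h3 : (q⁻¹ * q') p = p := by simp [h2]
  have h4 := hs _ (D.Q.mul_mem (D.Q.inv_mem hq) h1) h3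
  rw [T.mul _ (D.Q.inv_mem hq) _ h1, T.inv hq, Perm.mul_apply, Perm.inv_eq_iff_eq] at h4
  exact h4

end

section Stage

variable {X : Type} [Fintype X] {Ω : Type*} [Fintype Ω] {D : Dat X} {G : Subgroup (Perm Ω)}
  {a b c : Ω} {th : Perm X → Perm Ω}

/-- The map of `{a0} ∪ O1`. -/
noncomputable def vv (D : Dat X) (th : Perm X → Perm Ω) (a b : Ω) (x : X) : Ω :=
  if x = D.a0 then a else omap D th D.b0 b x

/-- The hypotheses of the first stage. -/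
structure Sg (M : Mdl D) (T : Th D G a th) (O : Orbits G a b c) : Prop where
  hs : ∀ q ∈ D.Q, th q b = b ↔ q D.b0 = D.b0

variable {M : Mdl D} {T : Th D G a th} {O : Orbits G a b c} (S : Sg M T O)
include S

theorem vv_a0 : vv D th a b D.a0 = a := by simp [vv]

theorem vv_smul {q : Perm X} (hq : q ∈ D.Q) : vv D th a b (q D.b0) = th q b := by
  have h : q D.b0 ≠ D.a0 := fun he => M.a0_not1 ⟨q, hq, he⟩
  rw [vv, if_neg h]
  exact omap_smul T (fun q hq h => (S.hs q hq).2 h) hq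

theorem vv_b0 : vv D th a b D.b0 = b := by
  have := vv_smul S (D.Q.one_mem)
  rw [T.one] at this
  simpa using this

theorem vv_q {q : Perm X} (hq : q ∈ D.Q) {x : X} (hx : x ∈ D.Y1) :
    vv D th a b (q x) = th q (vv D th a b x) := by
  rcases hx with rfl | ⟨p, hp, rfl⟩
  · rw [M.hQa q hq, vv_a0 S, T.fix q hq]
  · have h1 := vv_smul S (D.Q.mul_mem hq hp)
    rw [Perm.mul_apply] at h1
    rw [h1, vv_smul S hp, T.mul q hq p hp, Perm.mul_apply]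

theorem vv_mem {x : X} (hx : x ∈ D.O1) : vv D th a b x ∈ Orb G a b := by
  obtain ⟨p, hp, rfl⟩ := hx
  rw [vv_smul S hp]
  exact ⟨th p, T.mem p hp, T.fix p hp, rfl⟩

theorem vv_surj {y : Ω} (hy : y ∈ Orb G a b) : ∃ x ∈ D.O1, vv D th a b x = y := by
  obtain ⟨g, hg, hga, rfl⟩ := hy
  obtain ⟨q, hq, rfl⟩ := T.surj g hg hga
  exact ⟨q D.b0, ⟨q, hq, rfl⟩, vv_smul S hq⟩

theorem vv_inj1 {x y : X} (hx : x ∈ D.O1) (hy : y ∈ D.O1)
    (h : vv D th a b x = vv D th a b y) : x = y := by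
  obtain ⟨p, hp, rfl⟩ := hx
  obtain ⟨q, hq, rfl⟩ := hy
  rw [vv_smul S hp, vv_smul S hq] at h
  have h1 : th (q⁻¹ * p) b = b := by
    rw [T.mul _ (D.Q.inv_mem hq) _ hp, T.inv hq, Perm.mul_apply, Perm.inv_eq_iff_eq]
    exact h
  have h2 := (S.hs _ (D.Q.mul_mem (D.Q.inv_mem hq) hp)).1 h1
  rw [Perm.mul_apply, Perm.inv_eq_iff_eq] at h2
  exact h2

theorem vv_ne_a {x : X} (hx : x ∈ D.O1) : vv D th a b x ≠ a := by
  intro h
  have := vv_mem S hx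
  rw [h] at this
  exact O.a_not_b this

/-- The set of the neighbours of `b0` in the model. -/
def nS (D : Dat X) (G : Subgroup (Perm Ω)) (th : Perm X → Perm Ω) (a b : Ω) : Set X :=
  {y | y ∈ D.O1 ∧ Adj G a b b (vv D th a b y)}

theorem ncard_nS : (nS D G th a b).ncard = (nbrsIn G a b b (Orb G a b)).card := by
  have h1 : ((nbrsIn G a b b (Orb G a b) : Finset Ω) : Set Ω) = vv D th a b '' (nS D G th a b) := by
    ext y
    simp only [nbrsIn, Finset.coe_filter, mem_fin, Set.mem_image]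
    constructor
    · intro h
      obtain ⟨x, hx, rfl⟩ := vv_surj S h.1
      exact ⟨x, ⟨hx, h.2⟩, rfl⟩
    · rintro ⟨x, hx, rfl⟩
      exact ⟨vv_mem S hx.1, hx.2⟩
  have h2 : Set.InjOn (vv D th a b) (nS D G th a b) :=
    fun x hx y hy h => vv_inj1 S hx.1 hy.1 h
  rw [← Set.ncard_coe_finset, h1, h2.ncard_image]

/-- The neighbours of `b0` are the near points. -/
theorem nS_eq {t : Perm Ω} (ht : t ∈ G) (hab : t a = b) (hba : t b = a) :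
    nS D G th a b = D.Nr := by
  have hnoloop : ∀ x, ¬ Adj G a b x x := by
    rintro x ⟨g, _, h1, h2⟩
    have hnab : a ≠ b := fun hne => O.a_not_b (by rw [← hne]; exact mem_Orb_self a)
    exact hnab (g.injective (h1.trans h2.symm))
  obtain ⟨h1, h2⟩ := O.count ht hab hba
  have hinv : ∀ q ∈ D.Q, q D.b0 = D.b0 → ∀ y ∈ nS D G th a b, q y ∈ nS D G th a b := by
    intro q hq hqb y hy
    obtain ⟨⟨p, hp, rfl⟩, hy2⟩ := hy
    have hm : q (p D.b0) ∈ D.O1 := ⟨q * p, D.Q.mul_mem hq hp, rfl⟩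
    refine ⟨hm, ?_⟩
    have h3 := vv_q S hq (Or.inr ⟨p, hp, rfl⟩ : p D.b0 ∈ D.Y1)
    rw [h3]
    have h4 := (adj_smul_iff (T.mem q hq)).2 hy2
    rwa [(S.hs q hq).2 hqb] at h4
  have hsub : ∀ y ∈ nS D G th a b, y ∈ D.O1 ∧ y ≠ D.b0 := by
    rintro y ⟨h3, h4⟩
    refine ⟨h3, ?_⟩
    rintro rfl
    rw [vv_b0 S] at h4
    exact hnoloop _ h4
  have hdvd : 256 ∣ 1754 - (nS D G th a b).ncard := by
    rw [ncard_nS S]
    have h3 : 256 ∣ 1755 * (1754 - (nbrsIn G a b b (Orb G a b)).card) := by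
      rw [h1]
      exact Dvd.dvd.mul_right (by norm_num) _
    exact (Nat.Coprime.dvd_of_dvd_mul_left (by norm_num) h3)
  rcases M.hD _ hinv hsub hdvd with h3 | h3
  · exact h3
  · exfalso
    refine O.not_clique ht hab hba ?_
    intro x hx hne
    obtain ⟨y, hy, rfl⟩ := vv_surj S hx
    have hy2 : y ≠ D.b0 := by
      rintro rfl
      exact hne (vv_b0 S)
    exact (h3 y hy hy2).2

/-- Adjacency on `{a0} ∪ O1`. -/
theorem adj_vv {t : Perm Ω} (ht : t ∈ G) (hab : t a = b) (hba : t b = a) {x y : X}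
    (hx : x ∈ D.Y1) (hy : y ∈ D.Y1) :
    Adj G a b (vv D th a b x) (vv D th a b y) ↔ D.Gam x y := by
  have hsym : ∀ {x y}, Adj G a b x y → Adj G a b y x := fun h => h.symm_of_swap ht hab hba
  have hnab : a ≠ b := fun hne => O.a_not_b (by rw [← hne]; exact mem_Orb_self a)
  have hnoloop : ∀ x, ¬ Adj G a b x x := by
    rintro x ⟨g, _, h1, h2⟩
    exact hnab (g.injective (h1.trans h2.symm))
  -- the case of `b0` first
  have hb : ∀ y ∈ D.Y1, Adj G a b b (vv D th a b y) ↔ D.Gam D.b0 y := by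
    intro y hy
    rcases hy with rfl | hy
    · rw [vv_a0 S]
      exact ⟨fun _ => M.Gam_b0_a0, fun _ => hsym (show Adj G a b a b from mem_Orb_self b)⟩
    · by_cases hy2 : y = D.b0
      · subst hy2
        rw [vv_b0 S]
        exact ⟨fun h => absurd h (hnoloop _), fun h => absurd h M.Gam_b0_b0⟩
      · have h3 := nS_eq S ht hab hba
        constructor
        · intro h4
          have : y ∈ nS D G th a b := ⟨hy, h4⟩
          rw [h3] at this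
          exact ((M.Nr_iff y).1 this).2.2
        · intro h4
          have : y ∈ D.Nr := (M.Nr_iff y).2 ⟨hy, hy2, h4⟩
          rw [← h3] at this
          exact this.2
  rcases hx with rfl | ⟨q, hq, rfl⟩
  · rw [vv_a0 S, M.Gam_a0]
    rcases hy with rfl | hy
    · rw [vv_a0 S]
      exact ⟨fun h => absurd h (hnoloop _), fun h => absurd h M.a0_not1⟩
    · exact ⟨fun _ => hy, fun _ => vv_mem S hy⟩
  · rw [vv_smul S hq]
    have hy' : q⁻¹ y ∈ D.Y1 := by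
      rcases hy with rfl | ⟨p, hp, rfl⟩
      · left
        rw [Perm.inv_eq_iff_eq]
        exact (M.hQa q hq).symm
      · right
        exact ⟨q⁻¹ * p, D.Q.mul_mem (D.Q.inv_mem hq) hp, rfl⟩
    have h1 := M.Inv q hq D.b0 (Or.inr ⟨1, D.Q.one_mem, rfl⟩) (q⁻¹ y)
    have h2 : q (q⁻¹ y) = y := by simp
    rw [h2] at h1
    rw [h1, ← hb _ hy', vv_q S (D.Q.inv_mem hq) hy, T.inv hq, ← adj_smul_iff (T.mem q hq) (x := b)]
    simp

end Stage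

end Cfsg.Agent.Lib.RuRec
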