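import Cfsg.Agent.Lib.RuRec.Ck3
import Cfsg.Agent.Lib.RuRec.Ck4
import Cfsg.Agent.Lib.RuRec.Ck5

/-!
# Rank three recognition of the Rudvalis group: the properties of the model
-/

set_option autoImplicit false
set_option linter.unusedVariables false

namespace Cfsg.Agent.Lib.RuRec.Cc

open Equiv Cfsg.Agent.Lib.CosetCert Cfsg.Agent.Lib.CosetCert.D.Ru.Tbl

/-- The model has the required properties. -/
theorem model : Mdl DD where
  hQR := le01
  hQa := fun q hq => fixA hq
  hstabR := fun r hr h => stabA hr h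
  cardQ := D.Ru.Final.card1
  cardR := D.Ru.Final.card0
  cardX := by simp
  cover := cover
  a0_not1 := a0_not1
  a0_not2 := a0_not2
  disj := disj
  cardO1 := cardO1
  cardO2 := cardO2
  t0R := t0_mem
  t0a := t0a
  t0b := t0b
  Inv := fun q hq x _ y => Gam_smul (le01 hq)
  Gam_a0 := fun y => Gam_a0
  Gam_b0_a0 := Gam_b0_a0
  Gam_b0_b0 := Gam_b0_b0
  Nr_iff := fun y => Iff.rfl
  hD := fun S h1 h2 h3 => hD S h1 h2 h3
  t0Nr := fun y hy => t0Nr hy
  t0Nr' := fun y hy => t0Nr' hy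
  Gam_t0 := fun y _ x => Gam_smul t0_mem
  pat_inj := fun x x' h => pat_inj x x' h
  d0mem := d0mem
  c0eq := rfl
  cQ := le12 c_mem
  cb := fixB c_mem
  c5 := c5
  cne := cne
  dQ := le12 d_mem
  db := fixB d_mem
  dc := dc
  cardK := cardK
  hK := hK
  hRigid := fun τ h1 _ h3 h4 => hRigid τ h1 h3 h4
  hProp := fun A h1 h2 h3 y hy => hProp A h1 h2 h3 y hy

end Cfsg.Agent.Lib.RuRec.Cc
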