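import Cfsg.Agent.Lib.RuRec.Mdl

/-!
# Rank three recognition of the Rudvalis group: the action of the swap
-/

set_option autoImplicit false
set_option linter.unusedSectionVars false
set_option linter.unusedVariables false

namespace Cfsg.Agent.Lib.RuRec

open Equiv
open scoped Classical

/-- A swap of `a` and `b` in `G`. -/
structure Sw {Ω : Type*} (G : Subgroup (Perm Ω)) (a b : Ω) (t : Perm Ω) : Prop where
  mem : t ∈ G
  ab : t a = b
  ba : t b = a

namespace Sw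

variable {Ω : Type*} {G : Subgroup (Perm Ω)} {a b : Ω} {t : Perm Ω}

theorem inv_a (W : Sw G a b t) : t⁻¹ a = b := by
  rw [Perm.inv_eq_iff_eq]
  exact W.ba.symm

theorem inv_b (W : Sw G a b t) : t⁻¹ b = a := by
  rw [Perm.inv_eq_iff_eq]
  exact W.ab.symm

theorem adj_iff (W : Sw G a b t) {x y : Ω} : Adj G a b (t x) (t y) ↔ Adj G a b x y :=
  adj_smul_iff W.mem

theorem symm (W : Sw G a b t) {x y : Ω} (h : Adj G a b x y) : Adj G a b y x :=
  h.symm_of_swap W.mem W.ab W.ba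

theorem mul_fix (W : Sw G a b t) {g : Perm Ω} (hg : g ∈ G) (ha : g a = a) (hb : g b = b) :
    Sw G a b (g * t) :=
  ⟨G.mul_mem hg W.mem, by simp [W.ab, hb], by simp [W.ba, ha]⟩

end Sw

section

variable {X : Type} [Fintype X] {Ω : Type*} [Fintype Ω] {D : Dat X} {G : Subgroup (Perm Ω)}
  {a b c : Ω} {th : Perm X → Perm Ω}
variable {M : Mdl D} {T : Th D G a th} {O : Orbits G a b c} (S : Sg M T O)
include S

/-- Replacing the swap, it commutes with the image of `c`. -/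
theorem exists_commuting {t : Perm Ω} (W : Sw G a b t) :
    ∃ t1, Sw G a b t1 ∧ t1 * th D.c = th D.c * t1 := by
  have hcQ := M.cQ
  have hc_a := T.fix D.c hcQ
  have hc_b : th D.c b = b := (S.hs _ hcQ).2 M.cb
  set g := t * th D.c * t⁻¹ with hg_def
  have hg : g ∈ G := G.mul_mem (G.mul_mem W.mem (T.mem _ hcQ)) (G.inv_mem W.mem)
  have hga : g a = a := by
    rw [hg_def, Perm.mul_apply, Perm.mul_apply, W.inv_a, hc_b, W.ba]
  have hgb : g b = b := by
    rw [hg_def, Perm.mul_apply, Perm.mul_apply, W.inv_b, hc_a, W.ab]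
  obtain ⟨c', hc'Q, hc'⟩ := T.surj g hg hga
  have hc'b : c' D.b0 = D.b0 := (S.hs _ hc'Q).1 (by rw [hc']; exact hgb)
  have h5 : c' ^ 5 = 1 := by
    apply T.inj _ (D.Q.pow_mem hc'Q 5)
    rw [T.pow hc'Q, hc', hg_def, conj_pow, ← T.pow hcQ, M.c5, T.one]
    group
  have hne : c' ≠ 1 := by
    rintro rfl
    rw [T.one] at hc'
    have h1 : th D.c = 1 := by
      have h2 : t * th D.c * t⁻¹ = 1 := hc'.symm
      have h3 : t * th D.c = t := by
        rwa [mul_inv_eq_one] at h2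
      exact mul_eq_left.1 h3
    exact M.cne (T.inj _ hcQ h1)
  set K : Subgroup (Perm X) := D.Q ⊓ MulAction.stabilizer (Perm X) D.b0 with hK
  have hcardK : Nat.card K = 20480 := M.cardK
  have : Finite K := Nat.finite_of_card_ne_zero (by rw [hcardK]; norm_num)
  have hmemK : ∀ {p : Perm X}, p ∈ D.Q → p D.b0 = D.b0 → p ∈ K := by
    intro p hp hpb
    exact Subgroup.mem_inf.2 ⟨hp, MulAction.mem_stabilizer_iff.2 hpb⟩
  let cc : K := ⟨D.c, hmemK hcQ M.cb⟩
  let cc' : K := ⟨c', hmemK hc'Q hc'b⟩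
  have : Fact (Nat.Prime 5) := ⟨by norm_num⟩
  have hcc5 : cc ^ 5 = 1 := Subtype.ext M.c5
  have hcc'5 : cc' ^ 5 = 1 := Subtype.ext h5
  have hccne : cc ≠ 1 := fun h => M.cne (congrArg Subtype.val h)
  have hcc'ne : cc' ≠ 1 := fun h => hne (congrArg Subtype.val h)
  have hord : orderOf cc = 5 := orderOf_eq_prime hcc5 hccne
  have hord' : orderOf cc' = 5 := orderOf_eq_prime hcc'5 hcc'ne
  obtain ⟨k, hk⟩ := sylow_conj (G := K) 5 1 4096 (by rw [hcardK]; norm_num) (by norm_num)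
    (Subgroup.zpowers cc') (Subgroup.zpowers cc)
    (by rw [Nat.card_zpowers, hord']; norm_num) (by rw [Nat.card_zpowers, hord]; norm_num)
  have h1 := hk cc' (Subgroup.mem_zpowers _)
  rw [mem_zpowers_iff_mem_range_orderOf, hord] at h1
  simp only [Finset.mem_image, Finset.mem_range] at h1
  obtain ⟨i, hi, hxi⟩ := h1
  have hxi' : D.c ^ i = (k : Perm X) * c' * (k : Perm X)⁻¹ := congrArg Subtype.val hxi
  have hkQ : (k : Perm X) ∈ D.Q := (Subgroup.mem_inf.1 k.2).1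
  have hkb : (k : Perm X) D.b0 = D.b0 := MulAction.mem_stabilizer_iff.1 (Subgroup.mem_inf.1 k.2).2
  have hi0 : i ≠ 0 := by
    rintro rfl
    rw [pow_zero] at hxi'
    apply hne
    have h2 : (k : Perm X) * c' * (k : Perm X)⁻¹ = 1 := hxi'.symm
    rw [mul_inv_eq_one] at h2
    exact mul_eq_left.1 h2
  -- conjugate by a power of `d`
  have hdn : ∀ n : ℕ, D.d * D.c ^ n * D.d⁻¹ = D.c ^ (2 * n) := by
    intro n
    rw [← conj_pow, M.dc, ← pow_mul]
  have hdm : ∀ m n : ℕ, D.d ^ m * D.c ^ n * (D.d ^ m)⁻¹ = D.c ^ (2 ^ m * n) := by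
    intro m
    induction m with
    | zero => intro n; simp
    | succ m ih =>
      intro n
      have h3 : D.d ^ (m + 1) * D.c ^ n * (D.d ^ (m + 1))⁻¹ =
          D.d ^ m * (D.d * D.c ^ n * D.d⁻¹) * (D.d ^ m)⁻¹ := by
        rw [pow_succ]
        group
      rw [h3, hdn, ih, pow_succ]
      congr 1
      ring
  have hc1 : ∀ n : ℕ, n % 5 = 1 → D.c ^ n = D.c := by
    intro n hn
    have : n = 1 + 5 * (n / 5) := by omega
    rw [this, pow_add, pow_mul, M.c5]
    simp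
  obtain ⟨m, hm⟩ : ∃ m : ℕ, (2 ^ m * i) % 5 = 1 := by
    interval_cases i
    · exact absurd rfl hi0
    · exact ⟨0, by norm_num⟩
    · exact ⟨3, by norm_num⟩
    · exact ⟨1, by norm_num⟩
    · exact ⟨2, by norm_num⟩
  set y : Perm X := D.d ^ m * k with hy
  have hyQ : y ∈ D.Q := D.Q.mul_mem (D.Q.pow_mem M.dQ m) hkQ
  have hdmb : (D.d ^ m) D.b0 = D.b0 := by
    have h3 : D.d ∈ MulAction.stabilizer (Perm X) D.b0 := by
      rw [MulAction.mem_stabilizer_iff]
      exact M.db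
    have h4 := Subgroup.pow_mem _ h3 m
    rwa [MulAction.mem_stabilizer_iff] at h4
  have hyb : y D.b0 = D.b0 := by
    rw [hy, Perm.mul_apply, hkb, hdmb]
  have hyc : y * c' * y⁻¹ = D.c := by
    have h3 : y * c' * y⁻¹ = D.d ^ m * ((k : Perm X) * c' * (k : Perm X)⁻¹) * (D.d ^ m)⁻¹ := by
      rw [hy]
      group
    rw [h3, ← hxi', hdm, hc1 _ hm]
  have hth_yb : th y b = b := (S.hs _ hyQ).2 hyb
  refine ⟨th y * t, W.mul_fix (T.mem _ hyQ) (T.fix _ hyQ) hth_yb, ?_⟩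
  have h3 : th y * g * (th y)⁻¹ = th D.c := by
    rw [← hc', ← T.mul _ hyQ _ hc'Q, ← T.inv hyQ, ← T.mul _ (D.Q.mul_mem hyQ hc'Q) _ (D.Q.inv_mem hyQ),
      hyc]
  calc th y * t * th D.c = (th y * (t * th D.c * t⁻¹) * (th y)⁻¹) * (th y * t) := by group
    _ = th D.c * (th y * t) := by rw [← hg_def, h3]

/-- A near point is mapped by a swap to a near point. -/
theorem near_image {t : Perm Ω} (W : Sw G a b t) {y : X} (hy : y ∈ D.Nr) :
    ∃ y' ∈ D.Nr, vv D th a b y' = t (vv D th a b y) := by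
  obtain ⟨hy1, hy2, hy3⟩ := (M.Nr_iff y).1 hy
  have hYy : y ∈ D.Y1 := Or.inr hy1
  have hYb : D.b0 ∈ D.Y1 := Or.inr ⟨1, D.Q.one_mem, rfl⟩
  have h1 : Adj G a b b (vv D th a b y) := by
    have := (adj_vv S W.mem W.ab W.ba hYb hYy).2 hy3
    rwa [vv_b0 S] at this
  have h2 : Adj G a b a (vv D th a b y) := vv_mem S hy1
  have h3 : Adj G a b a (t (vv D th a b y)) := by
    have := W.adj_iff.2 h1
    rwa [W.ba] at this
  have h4 : Adj G a b b (t (vv D th a b y)) := by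
    have := W.adj_iff.2 h2
    rwa [W.ab] at this
  obtain ⟨y', hy'1, hy'2⟩ := vv_surj S h3
  refine ⟨y', (M.Nr_iff y').2 ⟨hy'1, ?_, ?_⟩, hy'2⟩
  · rintro rfl
    rw [vv_b0 S] at hy'2
    have h5 : t (vv D th a b y) = t a := by rw [← hy'2, W.ab]
    exact vv_ne_a S hy1 (t.injective h5)
  · have := (adj_vv S W.mem W.ab W.ba hYb (Or.inr hy'1)).1 (by rw [vv_b0 S, hy'2]; exact h4)
    exact this

/-- The images of the points of `D4` fill the neighbours of `b` outside the first orbits. -/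
theorem W_lemma {t : Perm Ω} (W : Sw G a b t) {h : Perm X} (hh : h ∈ D.Q)
    (hadj : Adj G a b (vv D th a b (h D.b0)) (t (vv D th a b D.d0))) :
    ∃ d' ∈ D.D4, (th h)⁻¹ (t (vv D th a b D.d0)) = t (vv D th a b d') := by
  obtain ⟨hd1, hd2, hd3⟩ := M.d0mem
  have hYb : D.b0 ∈ D.Y1 := Or.inr ⟨1, D.Q.one_mem, rfl⟩
  set C := t (vv D th a b D.d0) with hC
  set C' := (th h)⁻¹ C with hC'
  have h1 : Adj G a b b C' := by
    rw [vv_smul S hh] at hadj
    have := Adj.smul (G.inv_mem (T.mem h hh)) hadj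
    have h7 : (th h)⁻¹ (th h b) = b := by simp
    rwa [h7] at this
  have h2 : ¬ Adj G a b a C := by
    intro h3
    have h4 : Adj G a b (t b) (t (vv D th a b D.d0)) := by rwa [W.ba]
    have h5 := W.adj_iff.1 h4
    have h6 := (adj_vv S W.mem W.ab W.ba hYb (Or.inr hd1)).1 (by rw [vv_b0 S]; exact h5)
    exact hd3 h6
  have h3 : C ≠ a := by
    intro h3
    have h4 : t (vv D th a b D.d0) = t b := by rw [← hC, h3, W.ba]
    have h5 := t.injective h4
    have h5' : vv D th a b D.d0 = vv D th a b D.b0 := by rw [vv_b0 S]; exact h5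
    exact hd2 (vv_inj1 S hd1 ⟨1, D.Q.one_mem, rfl⟩ h5')
  have h4 : ¬ Adj G a b a C' := by
    intro h5
    apply h2
    have h6 := Adj.smul (T.mem h hh) h5
    rw [T.fix h hh] at h6
    simpa [hC'] using h6
  have h5 : C' ≠ a := by
    intro h6
    apply h3
    have h7 : th h C' = C := by simp [hC']
    rw [← h7, h6, T.fix h hh]
  have h6 : Adj G a b a (t⁻¹ C') := by
    have := Adj.smul (G.inv_mem W.mem) h1
    rwa [W.inv_b] at this
  obtain ⟨d', hd'1, hd'2⟩ := vv_surj S h6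
  refine ⟨d', ⟨hd'1, ?_, ?_⟩, ?_⟩
  · rintro rfl
    rw [vv_b0 S] at hd'2
    apply h5
    have h7 : t (t⁻¹ C') = C' := by simp
    rw [← h7, ← hd'2, W.ba]
  · intro h7
    apply h4
    have h8 := (adj_vv S W.mem W.ab W.ba hYb (Or.inr hd'1)).2 h7
    rw [vv_b0 S, hd'2] at h8
    have h9 := W.adj_iff.2 h8
    rw [W.ba] at h9
    simpa using h9
  · rw [hd'2]
    simp

/-- The candidate for the action of a swap on the near points. -/
noncomputable def tauOf (D : Dat X) (th : Perm X → Perm Ω) (a b : Ω) (t : Perm Ω) (y : X) : X :=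
  if h : ∃ y' ∈ D.Nr, vv D th a b y' = t (vv D th a b y) then Classical.choose h else y

theorem tauOf_spec {t : Perm Ω} (W : Sw G a b t) {y : X} (hy : y ∈ D.Nr) :
    tauOf D th a b t y ∈ D.Nr ∧ vv D th a b (tauOf D th a b t y) = t (vv D th a b y) := by
  have h := near_image S W hy
  rw [tauOf, dif_pos h]
  exact Classical.choose_spec h

theorem Nr_sub {y : X} (hy : y ∈ D.Nr) : y ∈ D.O1 := ((M.Nr_iff y).1 hy).1

/-- A swap gives a non-refuted candidate. -/
theorem not_refuted {t : Perm Ω} (W : Sw G a b t) : ¬ D.Refuted (tauOf D th a b t) := by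
  rintro ⟨h, hh, v, hv, hv1, hv2, hall⟩
  have hY : ∀ {y}, y ∈ D.O1 → y ∈ D.Y1 := fun h => Or.inr h
  have hd1 : D.d0 ∈ D.O1 := M.d0mem.1
  have hNr := fun {y : X} (hy : y ∈ D.Nr) => Nr_sub S hy
  set C := t (vv D th a b D.d0) with hC
  -- adjacency to `C`
  have hadjC : ∀ v2 ∈ D.Nr, Adj G a b (vv D th a b (tauOf D th a b t v2)) C ↔ D.Gam v2 D.d0 := by
    intro v2 hv2
    rw [(tauOf_spec S W hv2).2, hC, W.adj_iff]
    exact adj_vv S W.mem W.ab W.ba (hY (hNr hv2)) (hY hd1)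
  have h1 : Adj G a b (vv D th a b (h D.b0)) C := by
    rw [hv1]
    exact (hadjC v hv).2 hv2
  obtain ⟨d', hd', hd'2⟩ := W_lemma S W hh h1
  obtain ⟨v1, hv1', v2, hv2', he, hne⟩ := hall d' hd'
  apply hne
  rw [← hadjC v2 hv2', ← he]
  have hm1 := (tauOf_spec S W hv1').1
  have hk : ∀ x, Adj G a b (th h x) C ↔ Adj G a b x ((th h)⁻¹ C) := by
    intro x
    rw [← adj_smul_iff (T.mem h hh) (x := x) (y := (th h)⁻¹ C)]
    simp
  rw [vv_q S hh (hY (hNr hm1)), hk, hd'2, (tauOf_spec S W hv1').2, W.adj_iff]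
  exact (adj_vv S W.mem W.ab W.ba (hY (hNr hv1')) (hY hd'.1))

/-- The swap can be chosen to act as `t0` on the near points. -/
theorem exists_good {t : Perm Ω} (W : Sw G a b t) :
    ∃ t2, Sw G a b t2 ∧ ∀ y ∈ D.Nr, t2 (vv D th a b y) = vv D th a b (D.t0 y) := by
  obtain ⟨t1, W1, hcomm⟩ := exists_commuting S W
  have hY : ∀ {y}, y ∈ D.O1 → y ∈ D.Y1 := fun h => Or.inr h
  have hNr := fun {y : X} (hy : y ∈ D.Nr) => Nr_sub S hy
  have hspec := fun {y : X} (hy : y ∈ D.Nr) => tauOf_spec S W1 hy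
  have hr := M.hRigid (tauOf D th a b t1) (fun y hy => (hspec hy).1) ?_ ?_ ?_
  · rcases hr with ⟨k, hk, hkb, hτ⟩ | hr
    · have hkbb : th k b = b := (S.hs _ hk).2 hkb
      have hkinvb : (th k)⁻¹ b = b := by
        rw [Perm.inv_eq_iff_eq]
        exact hkbb.symm
      refine ⟨(th k)⁻¹ * t1, W1.mul_fix (G.inv_mem (T.mem k hk)) (T.inv_apply_a hk) hkinvb, ?_⟩
      intro y hy
      rw [Perm.mul_apply, ← (hspec hy).2, hτ y hy, vv_q S hk (hY (hNr (M.t0Nr y hy)))]
      simp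
    · exact absurd hr (not_refuted S W1)
  · intro y hy z hz h
    have h1 : t1 (vv D th a b y) = t1 (vv D th a b z) := by
      rw [← (hspec hy).2, ← (hspec hz).2, h]
    exact vv_inj1 S (hNr hy) (hNr hz) (t1.injective h1)
  · intro y hy z hz
    rw [← adj_vv S W1.mem W1.ab W1.ba (hY (hNr (hspec hy).1)) (hY (hNr (hspec hz).1)),
      (hspec hy).2, (hspec hz).2, W1.adj_iff]
    exact adj_vv S W1.mem W1.ab W1.ba (hY (hNr hy)) (hY (hNr hz))
  · intro y hy
    have hcQ := M.cQ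
    have hcy : D.c y ∈ D.Nr := by
      obtain ⟨h1, h2, h3⟩ := (M.Nr_iff y).1 hy
      refine (M.Nr_iff _).2 ⟨?_, ?_, ?_⟩
      · obtain ⟨p, hp, rfl⟩ := h1
        exact ⟨D.c * p, D.Q.mul_mem hcQ hp, rfl⟩
      · intro h4
        apply h2
        rw [← M.cb] at h4
        exact D.c.injective h4
      · have := (M.Inv _ hcQ D.b0 (Or.inr ⟨1, D.Q.one_mem, rfl⟩) y).2 h3
        rwa [M.cb] at this
    have hm : D.c (tauOf D th a b t1 y) ∈ D.O1 := by
      obtain ⟨p, hp, hpe⟩ := hNr (hspec hy).1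
      exact ⟨D.c * p, D.Q.mul_mem hcQ hp, by rw [Perm.mul_apply, hpe]⟩
    apply vv_inj1 S (hNr (hspec hcy).1) hm
    rw [(hspec hcy).2, vv_q S hcQ (hY (hNr hy)), vv_q S hcQ (hY (hNr (hspec hy).1)), (hspec hy).2]
    exact congrFun (congrArg DFunLike.coe hcomm) _

end

end Cfsg.Agent.Lib.RuRec
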