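import Cfsg.Agent.Lib.RuRec.Stage

/-!
# Rank three recognition of the Rudvalis group: the last stage
-/

set_option autoImplicit false
set_option linter.unusedSectionVars false
set_option linter.unusedVariables false

namespace Cfsg.Agent.Lib.RuRec

open Equiv
open scoped Classical

section

variable {X : Type} [Fintype X] {Ω : Type*} [Fintype Ω] {D : Dat X} {G : Subgroup (Perm Ω)}
  {a b c : Ω} {th : Perm X → Perm Ω}
variable {M : Mdl D} {T : Th D G a th} {O : Orbits G a b c} (S : Sg M T O)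
  {t : Perm Ω} (W : Sw G a b t) (hY : ∀ y ∈ D.Nr, t (vv D th a b y) = vv D th a b (D.t0 y))
include S W

theorem Y1_b0 : D.b0 ∈ D.Y1 := Or.inr ⟨1, D.Q.one_mem, rfl⟩

theorem Y1_of {y : X} (h : y ∈ D.O1) : y ∈ D.Y1 := Or.inr h

include hY

/-- A near point is the image under the swap of a near point. -/
theorem near_pre {z : X} (hz : z ∈ D.Nr) :
    D.t0⁻¹ z ∈ D.Nr ∧ t (vv D th a b (D.t0⁻¹ z)) = vv D th a b z := by
  have h1 := M.t0Nr' z hz
  refine ⟨h1, ?_⟩
  rw [hY _ h1]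
  simp

/-- Adjacency to the image of a point of `D4`. -/
theorem adj_near {z d' : X} (hz : z ∈ D.Nr) (hd' : d' ∈ D.O1) :
    Adj G a b (vv D th a b z) (t (vv D th a b d')) ↔ D.Gam z (D.t0 d') := by
  obtain ⟨h1, h2⟩ := near_pre S W hY hz
  rw [← h2, W.adj_iff, adj_vv S W.mem W.ab W.ba (Or.inr (Nr_sub S h1)) (Or.inr hd')]
  have h3 := M.Gam_t0 (D.t0⁻¹ z) (Or.inr (Or.inr h1)) d'
  have h4 : D.t0 (D.t0⁻¹ z) = z := by simp
  rw [h4] at h3
  exact h3.symm

/-- The adjacency of the image `C` of `d0` to the orbit of `b0`. -/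
theorem adj_C {y : X} (hy : y ∈ D.O1) :
    Adj G a b (vv D th a b y) (t (vv D th a b D.d0)) ↔ D.Gam y D.c0 := by
  obtain ⟨hd1, hd2, hd3⟩ := M.d0mem
  refine M.hProp (fun y => Adj G a b (vv D th a b y) (t (vv D th a b D.d0))) ?_ ?_ ?_ y hy
  · intro y hy
    rw [M.c0eq]
    exact adj_near S W hY hy hd1
  · show Adj G a b (vv D th a b D.b0) _
    rw [vv_b0 S]
    have h1 : Adj G a b a (vv D th a b D.d0) := vv_mem S hd1
    have h2 := W.adj_iff.2 h1
    rwa [W.ab] at h2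
  · intro h hh hA
    obtain ⟨d', hd', hd'2⟩ := W_lemma S W hh hA
    refine ⟨d', hd', fun z hz => ?_⟩
    show Adj G a b (vv D th a b (h z)) _ ↔ _
    rw [vv_q S hh (Y1_of S W (Nr_sub S hz))]
    have hk : ∀ x, Adj G a b (th h x) (t (vv D th a b D.d0)) ↔
        Adj G a b x ((th h)⁻¹ (t (vv D th a b D.d0))) := by
      intro x
      rw [← adj_smul_iff (T.mem h hh) (x := x) (y := (th h)⁻¹ _)]
      simp
    rw [hk, hd'2]
    exact adj_near S W hY hz hd'.1

/-- The image of `d0` lies in the last orbit. -/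
theorem C_mem : t (vv D th a b D.d0) ∈ Orb G a c := by
  obtain ⟨hd1, hd2, hd3⟩ := M.d0mem
  rcases O.cover (t (vv D th a b D.d0)) with h | h | h
  · exfalso
    have h4 : t (vv D th a b D.d0) = t b := by rw [h, W.ba]
    have h5 := t.injective h4
    have h5' : vv D th a b D.d0 = vv D th a b D.b0 := by rw [vv_b0 S]; exact h5
    exact hd2 (vv_inj1 S hd1 ⟨1, D.Q.one_mem, rfl⟩ h5')
  · exfalso
    have h1 : Adj G a b (t b) (t (vv D th a b D.d0)) := by rw [W.ba]; exact h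
    have h2 := W.adj_iff.1 h1
    have h3 := (adj_vv S W.mem W.ab W.ba (Y1_b0 S W) (Y1_of S W hd1)).1 (by rw [vv_b0 S]; exact h2)
    exact hd3 h3
  · exact h

theorem c0_mem2 : D.c0 ∈ D.O2 := ⟨1, D.Q.one_mem, rfl⟩

/-- The stabiliser of `C` fixes `c0`. -/
theorem stab_C1 {q : Perm X} (hq : q ∈ D.Q) (h : th q (t (vv D th a b D.d0)) = t (vv D th a b D.d0)) :
    q D.c0 = D.c0 := by
  apply M.pat_inj
  have hO1 : ∀ y ∈ D.O1, D.Gam y (q D.c0) ↔ D.Gam y D.c0 := by
    intro y hy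
    have hy' : q⁻¹ y ∈ D.O1 := by
      obtain ⟨p, hp, rfl⟩ := hy
      exact ⟨q⁻¹ * p, D.Q.mul_mem (D.Q.inv_mem hq) hp, rfl⟩
    have h1 := M.Inv q hq (q⁻¹ y) (Or.inr hy') D.c0
    have h2 : q (q⁻¹ y) = y := by simp
    rw [h2] at h1
    rw [h1, ← adj_C S W hY hy', vv_q S (D.Q.inv_mem hq) (Or.inr hy), T.inv hq,
      ← adj_C S W hY hy, ← adj_smul_iff (T.mem q hq)]
    have h3 : th q ((th q)⁻¹ (vv D th a b y)) = vv D th a b y := by simp
    rw [h3, h]
  intro y hy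
  rcases hy with rfl | rfl | hy
  · rw [M.Gam_a0, M.Gam_a0]
    have h1 : D.c0 ∉ D.O1 := fun h1 => M.disj _ h1 (c0_mem2 S W hY)
    have h2 : q D.c0 ∉ D.O1 := fun h2 => M.disj _ h2 ⟨q, hq, rfl⟩
    exact ⟨fun h => absurd h h2, fun h => absurd h h1⟩
  · exact hO1 _ ⟨1, D.Q.one_mem, rfl⟩
  · exact hO1 _ (Nr_sub S hy)

/-- The stabiliser of `c0` fixes `C`. -/
theorem stab_C2 {q : Perm X} (hq : q ∈ D.Q) (h : q D.c0 = D.c0) :
    th q (t (vv D th a b D.d0)) = t (vv D th a b D.d0) := by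
  set C := t (vv D th a b D.d0) with hC
  have hCm : C ∈ Orb G a c := C_mem S W hY
  have hOC : Orb G a C = Orb G a c := Orb_eq_of_mem hCm
  -- the map from the orbit of `C`
  let f : Ω → X := fun w => if hw : ∃ p, p ∈ D.Q ∧ th p C = w then (Classical.choose hw) D.c0 else D.c0
  have hf : ∀ p ∈ D.Q, f (th p C) = p D.c0 := by
    intro p hp
    have hw : ∃ p', p' ∈ D.Q ∧ th p' C = th p C := ⟨p, hp, rfl⟩
    simp only [f]
    rw [dif_pos hw]
    obtain ⟨h1, h2⟩ := Classical.choose_spec hw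
    set p' := Classical.choose hw
    have h3 : th (p⁻¹ * p') C = C := by
      rw [T.mul _ (D.Q.inv_mem hp) _ h1, T.inv hp, Perm.mul_apply, h2]
      simp
    have h4 := stab_C1 S W hY (D.Q.mul_mem (D.Q.inv_mem hp) h1) h3
    rw [Perm.mul_apply, Perm.inv_eq_iff_eq] at h4
    exact h4
  have himg : f '' (Orb G a C) = D.O2 := by
    ext x
    constructor
    · rintro ⟨w, ⟨g, hg, hga, rfl⟩, rfl⟩
      obtain ⟨p, hp, rfl⟩ := T.surj g hg hga
      rw [hf p hp]
      exact ⟨p, hp, rfl⟩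
    · rintro ⟨p, hp, rfl⟩
      exact ⟨th p C, ⟨th p, T.mem p hp, T.fix p hp, rfl⟩, hf p hp⟩
  have hinj : Set.InjOn f (Orb G a C) := by
    refine Set.injOn_of_ncard_image_eq ?_ (Set.toFinite _)
    rw [himg, M.cardO2, hOC, O.hc]
  have h1 : f (th q C) = f C := by
    have h2 := hf q hq
    have h3 := hf 1 D.Q.one_mem
    rw [T.one] at h3
    simp only [Perm.one_apply] at h3
    rw [h2, h3, h]
  exact hinj ⟨th q, T.mem q hq, T.fix q hq, rfl⟩ (mem_Orb_self C) h1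

/-- The map on all the points. -/
noncomputable def uu (D : Dat X) (th : Perm X → Perm Ω) (a b C : Ω) (x : X) : Ω :=
  if x ∈ D.Y1 then vv D th a b x else omap D th D.c0 C x

theorem uu_Y1 {C : Ω} {x : X} (hx : x ∈ D.Y1) : uu D th a b C x = vv D th a b x := by
  rw [uu, if_pos hx]

theorem uu_O2 {q : Perm X} (hq : q ∈ D.Q) :
    uu D th a b (t (vv D th a b D.d0)) (q D.c0) = th q (t (vv D th a b D.d0)) := by
  have h : q D.c0 ∉ D.Y1 := by
    rintro (h | h)
    · exact M.a0_not2 ⟨q, hq, h⟩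
    · exact M.disj _ h ⟨q, hq, rfl⟩
  rw [uu, if_neg h]
  exact omap_smul T (fun p hp h => stab_C2 S W hY hp h) hq

theorem uu_q {q : Perm X} (hq : q ∈ D.Q) (x : X) :
    uu D th a b (t (vv D th a b D.d0)) (q x) = th q (uu D th a b (t (vv D th a b D.d0)) x) := by
  by_cases hx : x ∈ D.Y1
  · have h1 : q x ∈ D.Y1 := by
      rcases hx with rfl | ⟨p, hp, rfl⟩
      · left
        exact M.hQa q hq
      · right
        exact ⟨q * p, D.Q.mul_mem hq hp, rfl⟩
    rw [uu_Y1 S W hY h1, uu_Y1 S W hY hx, vv_q S hq hx]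
  · rcases M.cover x with h | h | h
    · exact absurd (Or.inl h) hx
    · exact absurd (Or.inr h) hx
    · obtain ⟨p, hp, rfl⟩ := h
      have h2 := uu_O2 S W hY (D.Q.mul_mem hq hp)
      rw [Perm.mul_apply] at h2
      rw [h2, uu_O2 S W hY hp, T.mul q hq p hp, Perm.mul_apply]

theorem uu_surj : Function.Surjective (uu D th a b (t (vv D th a b D.d0))) := by
  intro w
  rcases O.cover w with rfl | h | h
  · exact ⟨D.a0, by rw [uu_Y1 S W hY (Or.inl rfl), vv_a0 S]⟩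
  · obtain ⟨x, hx, rfl⟩ := vv_surj S h
    exact ⟨x, uu_Y1 S W hY (Or.inr hx)⟩
  · rw [← Orb_eq_of_mem (C_mem S W hY)] at h
    obtain ⟨g, hg, hga, rfl⟩ := h
    obtain ⟨p, hp, rfl⟩ := T.surj g hg hga
    exact ⟨p D.c0, uu_O2 S W hY hp⟩

theorem uu_bij : Function.Bijective (uu D th a b (t (vv D th a b D.d0))) := by
  rw [Fintype.bijective_iff_surjective_and_card]
  exact ⟨uu_surj S W hY, by rw [M.cardX, O.hcard]⟩

/-- The adjacency of the points of `{a0} ∪ O1` to all the points. -/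
theorem adj_uu {x : X} (hx : x ∈ D.Y1) (y : X) :
    Adj G a b (uu D th a b (t (vv D th a b D.d0)) x) (uu D th a b (t (vv D th a b D.d0)) y) ↔ D.Gam x y := by
  by_cases hy : y ∈ D.Y1
  · rw [uu_Y1 S W hY hx, uu_Y1 S W hY hy]
    exact adj_vv S W.mem W.ab W.ba hx hy
  · rcases M.cover y with h | h | h
    · exact absurd (Or.inl h) hy
    · exact absurd (Or.inr h) hy
    · obtain ⟨q, hq, rfl⟩ := h
      rw [uu_O2 S W hY hq, uu_Y1 S W hY hx]
      rcases hx with rfl | hx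
      · rw [vv_a0 S, M.Gam_a0]
        constructor
        · intro h
          exfalso
          have h1 : th q (t (vv D th a b D.d0)) ∈ Orb G a b := h
          have h2 := (Orb_invariant (T.mem q hq) (T.fix q hq) b _).1 h1
          exact O.disj h2 (C_mem S W hY)
        · intro h
          exact absurd ⟨q, hq, rfl⟩ (fun h2 => M.disj _ h h2)
      · have hx' : q⁻¹ x ∈ D.O1 := by
          obtain ⟨p, hp, rfl⟩ := hx
          exact ⟨q⁻¹ * p, D.Q.mul_mem (D.Q.inv_mem hq) hp, rfl⟩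
        have h1 := M.Inv q hq (q⁻¹ x) (Or.inr hx') D.c0
        have h2 : q (q⁻¹ x) = x := by simp
        rw [h2] at h1
        have h5 : Adj G a b (vv D th a b x) (th q (t (vv D th a b D.d0))) ↔
            Adj G a b ((th q)⁻¹ (vv D th a b x)) (t (vv D th a b D.d0)) := by
          rw [← adj_smul_iff (T.mem q hq) (x := (th q)⁻¹ (vv D th a b x)) (y := t (vv D th a b D.d0))]
          simp
        rw [h5, h1, ← adj_C S W hY hx', vv_q S (D.Q.inv_mem hq) (Or.inr hx), T.inv hq]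

/-- The swap acts on the points `Y0` as `t0`. -/
theorem t_Y0 {y : X} (hy : y ∈ D.Y0) :
    t (uu D th a b (t (vv D th a b D.d0)) y) = uu D th a b (t (vv D th a b D.d0)) (D.t0 y) := by
  rcases hy with rfl | rfl | hy
  · rw [M.t0a, uu_Y1 S W hY (Or.inl rfl), uu_Y1 S W hY (Y1_b0 S W), vv_a0 S, vv_b0 S, W.ab]
  · rw [M.t0b, uu_Y1 S W hY (Y1_b0 S W), uu_Y1 S W hY (Or.inl rfl), vv_a0 S, vv_b0 S, W.ba]
  · rw [uu_Y1 S W hY (Or.inr (Nr_sub S hy)), uu_Y1 S W hY (Or.inr (Nr_sub S (M.t0Nr y hy))), hY y hy]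

theorem t0inv_Y0 {y : X} (hy : y ∈ D.Y0) : D.t0⁻¹ y ∈ D.Y0 := by
  rcases hy with rfl | rfl | hy
  · right; left
    rw [Perm.inv_eq_iff_eq]
    exact M.t0b.symm
  · left
    rw [Perm.inv_eq_iff_eq]
    exact M.t0a.symm
  · right; right
    exact M.t0Nr' y hy

theorem Y0_sub {y : X} (hy : y ∈ D.Y0) : y ∈ D.Y1 := by
  rcases hy with rfl | rfl | hy
  · exact Or.inl rfl
  · exact Y1_b0 S W
  · exact Or.inr (Nr_sub S hy)

/-- The swap is the transport of `t0`. -/
theorem t_uu (x : X) :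
    t (uu D th a b (t (vv D th a b D.d0)) x) = uu D th a b (t (vv D th a b D.d0)) (D.t0 x) := by
  obtain ⟨x', hx'⟩ := uu_surj S W hY (t (uu D th a b (t (vv D th a b D.d0)) x))
  rw [← hx']
  congr 1
  apply M.pat_inj
  intro y hy
  have hy'' := t0inv_Y0 S W hY hy
  have h4 : D.t0 (D.t0⁻¹ y) = y := by simp
  have h1 := t_Y0 S W hY hy''
  rw [h4] at h1
  rw [← adj_uu S W hY (Y0_sub S W hY hy) x', hx', ← h1, W.adj_iff, adj_uu S W hY (Y0_sub S W hY hy'')]
  have h3 := M.Gam_t0 _ hy'' x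
  rw [h4] at h3
  exact h3.symm

end

end Cfsg.Agent.Lib.RuRec
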